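import Cfsg.Agent.Fi24Mult30.Walk

/-!
The kernel of the cover onto Fi24 is generated by the dropped relator and its order divides three.

The value `η` by which conjugation with `k` twists a subgroup element is a cocycle on the stabilizer
of point 1; the square of one element and the cube of another lie in the subgroup of nine letters.
-/

set_option autoImplicit false
set_option maxRecDepth 8000

namespace CfsgLib.Fi24Mult30

open CfsgLib.CosetEnum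
open CfsgLib.CosetEnum.Fi24 (wrev wone wapp wlW cW ChecksOK)

/-- the class of the dropped relator -/
noncomputable def Zc : Cov := gword q12 cW

theorem Zc_eq : Zc = QuotientGroup.mk' Com0 zRel := q12_gword cW

theorem proj_Zc : proj Zc = 1 := by rw [Zc, proj_gword, Fi24.gword_cW]

/-- the first half of the central word -/
def rightW : List ℕ := [11, 0, 1, 2, 3, 8, 7, 3, 9, 6, 5, 4, 3, 10, 11, 0, 1, 2, 3, 8, 7, 3, 9, 6, 5, 4, 3, 10, 11, 0, 1, 2, 3, 8, 7, 3, 9, 6, 5, 4, 3, 10, 11, 0, 1, 2, 3, 8, 7, 3, 9, 6, 5, 4, 3, 10, 11, 0, 1, 2, 3, 8, 7, 3, 9, 6, 5, 4, 3, 10, 11, 0, 1, 2, 3, 8, 7, 3, 9, 6, 5, 4, 3, 10, 11]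

/-- the second half -/
def leftW : List ℕ := [10, 3, 4, 5, 6, 9, 3, 7, 8, 3, 2, 1, 0, 11, 10, 3, 4, 5, 6, 9, 3, 7, 8, 3, 2, 1, 0, 11, 10, 3, 4, 5, 6, 9, 3, 7, 8, 3, 2, 1, 0, 11, 10, 3, 4, 5, 6, 9, 3, 7, 8, 3, 2, 1, 0, 11, 10, 3, 4, 5, 6, 9, 3, 7, 8, 3, 2, 1, 0, 11, 10, 3, 4, 5, 6, 9, 3, 7, 8, 3, 2, 1, 0, 11, 10, 3, 4, 5, 6, 9, 3, 7, 8, 3, 2, 1, 0, 11, 10, 3, 4, 5, 6, 9, 3, 7, 8, 3, 2, 1, 0, 11, 10, 3, 4, 5, 6, 9, 3, 7, 8, 3, 2, 1, 0, 11, 10, 3, 4, 5, 6, 9, 3, 7, 8, 3, 2, 1, 0, 11, 10, 3, 4, 5, 6, 9, 3, 7, 8, 3, 2, 1, 0]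

theorem rot_eq : cW.drop 4 ++ cW.take 4 = (leftW.reverse ++ rightW).reverse := by decide +kernel

theorem halves : gword q12 rightW =
    gword q12 leftW * ((gword q12 (cW.take 4))⁻¹ * Zc * gword q12 (cW.take 4))⁻¹ := by
  have e : gword q12 (cW.drop 4 ++ cW.take 4) =
      (gword q12 (cW.take 4))⁻¹ * Zc * gword q12 (cW.take 4) := by
    have hz : Zc = gword q12 (cW.take 4) * gword q12 (cW.drop 4) := by
      rw [Zc, ← wapp, List.take_append_drop]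
    rw [wapp, hz, inv_mul_cancel_left]
  rw [← e, rot_eq, wrev q12_inv, inv_inv, wapp, wrev q12_inv, mul_inv_cancel_left]

/-- conjugation by `k` sends `a` to `η` times an element of the subgroup -/
def Tw (a η : Cov) : Prop := a ∈ HC ∧ proj η = 1 ∧ η⁻¹ * (q12 11 * a * q12 11) ∈ HC

variable (h : ChecksOK)
include h

theorem twist_value : ∃ η : Cov, (∃ t, η = t * Zc * t⁻¹) ∧ Tw (gword q12 wlW) η := by
  have hR := rightEnd h
  have hL := leftEnd h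
  unfold Same at hR hL
  rw [show ([11, 0, 1, 2, 3, 8, 7, 3, 9, 6, 5, 4, 3, 10, 11, 0, 1, 2, 3, 8, 7, 3, 9, 6, 5, 4, 3, 10, 11, 0, 1, 2, 3, 8, 7, 3, 9, 6, 5, 4, 3, 10, 11, 0, 1, 2, 3, 8, 7, 3, 9, 6, 5, 4, 3, 10, 11, 0, 1, 2, 3, 8, 7, 3, 9, 6, 5, 4, 3, 10, 11, 0, 1, 2, 3, 8, 7, 3, 9, 6, 5, 4, 3, 10, 11] : List ℕ) = rightW from rfl, halves] at hR
  rw [show ([10, 3, 4, 5, 6, 9, 3, 7, 8, 3, 2, 1, 0, 11, 10, 3, 4, 5, 6, 9, 3, 7, 8, 3, 2, 1, 0, 11, 10, 3, 4, 5, 6, 9, 3, 7, 8, 3, 2, 1, 0, 11, 10, 3, 4, 5, 6, 9, 3, 7, 8, 3, 2, 1, 0, 11, 10, 3, 4, 5, 6, 9, 3, 7, 8, 3, 2, 1, 0, 11, 10, 3, 4, 5, 6, 9, 3, 7, 8, 3, 2, 1, 0, 11, 10, 3, 4, 5, 6, 9, 3, 7, 8, 3, 2, 1, 0, 11, 10, 3, 4, 5, 6, 9, 3, 7, 8, 3, 2, 1, 0, 11, 10, 3, 4, 5, 6, 9, 3, 7, 8, 3, 2, 1, 0, 11, 10, 3, 4, 5, 6, 9, 3, 7, 8, 3, 2, 1, 0, 11, 10, 3, 4, 5, 6, 9, 3, 7, 8, 3, 2, 1, 0] : List ℕ) = leftW from rfl] at hL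
  set c := gword q12 (cW.take 4)
  set ρ := gword q12 ([9, 3, 7, 5, 2, 3, 4, 1, 2, 3, 7, 8, 2, 3, 4, 1, 2, 3, 7, 6, 5, 4, 3, 2, 1, 0, 10] ++ [11])
  set l := gword q12 ([10, 3, 4, 5, 6, 9, 3, 7, 8, 3, 2, 1, 0, 3, 7, 1, 2, 3, 4, 5, 6, 9, 4, 3, 7, 8, 4, 5, 2, 3, 4, 1, 2, 3, 7, 1, 2, 3, 4, 5, 6, 4, 2, 3, 10, 3, 4, 2, 3, 7, 1, 2, 3, 4, 0, 1, 2, 3, 7, 8, 7, 3, 4, 2, 3, 7, 5, 4, 3, 2, 1, 0] ++ [11])
  set Z0 := c⁻¹ * Zc * c
  set u := ρ⁻¹ * (gword q12 leftW * Z0⁻¹)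
  set v := l⁻¹ * gword q12 leftW
  refine ⟨u * Z0 * u⁻¹, ⟨u * c⁻¹, by simp only [Z0]; group⟩, gword_mem_HC (by decide), ?_, ?_⟩
  · simp only [Z0, map_mul, map_inv, proj_Zc]
    group
  have hk : q12 11 * gword q12 wlW * q12 11 = ρ⁻¹ * l := by
    rw [← wone q12 11, ← wapp, ← wapp]
    rw [show ([11] ++ wlW) ++ [11] = ([9, 3, 7, 5, 2, 3, 4, 1, 2, 3, 7, 8, 2, 3, 4, 1, 2, 3, 7, 6, 5, 4, 3, 2, 1, 0, 10] ++ [11]).reverse ++ ([10, 3, 4, 5, 6, 9, 3, 7, 8, 3, 2, 1, 0, 3, 7, 1, 2, 3, 4, 5, 6, 9, 4, 3, 7, 8, 4, 5, 2, 3, 4, 1, 2, 3, 7, 1, 2, 3, 4, 5, 6, 4, 2, 3, 10, 3, 4, 2, 3, 7, 1, 2, 3, 4, 0, 1, 2, 3, 7, 8, 7, 3, 4, 2, 3, 7, 5, 4, 3, 2, 1, 0] ++ [11]) by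
      decide +kernel, wapp, wrev q12_inv]
  rw [hk]
  have e : (u * Z0 * u⁻¹)⁻¹ * (ρ⁻¹ * l) = u * v⁻¹ := by
    simp only [u, v]; group
  rw [e]
  exact mul_mem hR (inv_mem hL)

omit h in
/-- conjugation by an odd letter -/
noncomputable def flip1 (n : Cov) : Cov := q12 1 * n * q12 1

omit h in
theorem conj_ker {n b : Cov} (hn : proj n = 1) :
    (parC b = 1 → b * n * b⁻¹ = n) ∧ (parC b = -1 → b * n * b⁻¹ = flip1 n) := by
  refine ⟨fun hb => by rw [← ker_comm hn hb, mul_inv_cancel_right], fun hb => ?_⟩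
  have hb' : parC (q12 1 * b) = 1 := by
    rw [map_mul, parC_q12 (by omega), hb]; rfl
  have e := ker_comm hn hb'
  calc b * n * b⁻¹ = q12 1 * ((q12 1 * b) * n) * (q12 1 * b)⁻¹ * q12 1 := by
        rw [← mul_assoc (q12 1), ← mul_assoc (q12 1), q12_sq, one_mul, mul_inv_rev, ← q12_inv]
        simp only [mul_assoc, q12_sq, mul_one]
    _ = flip1 n := by
        rw [← e, flip1]; group

omit h in
theorem Tw.parC_eq {a η : Cov} (ha : Tw a η) :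
    parC (η⁻¹ * (q12 11 * a * q12 11)) = parC a := by
  have h1 : parC η = 1 := by rw [← parity_proj, ha.2.1, map_one]
  rw [map_mul, map_inv, h1, inv_one, one_mul, map_mul, map_mul, parC_q12 (by omega),
    mul_comm (-1 : ℤˣ), mul_assoc]
  simp

omit h in
theorem Tw.mul {a a' η η' t : Cov} (ha : Tw a η) (ha' : Tw a' η')
    (ht : (η⁻¹ * (q12 11 * a * q12 11)) * η' * (η⁻¹ * (q12 11 * a * q12 11))⁻¹ = t) :
    Tw (a * a') (η * t) := by
  refine ⟨mul_mem ha.1 ha'.1, ?_, ?_⟩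
  · rw [← ht, map_mul, map_mul, map_mul, map_inv, ha.2.1, ha'.2.1, one_mul, mul_one, mul_inv_cancel]
  have e : (η * t)⁻¹ * (q12 11 * (a * a') * q12 11) =
      (η⁻¹ * (q12 11 * a * q12 11)) * (η'⁻¹ * (q12 11 * a' * q12 11)) := by
    rw [← ht, show q12 11 * (a * a') * q12 11 =
      (q12 11 * a * q12 11) * (q12 11 * a' * q12 11) by
        simp only [mul_assoc]; rw [← mul_assoc (q12 11) (q12 11), q12_sq, one_mul]]
    group
  rw [e]
  exact mul_mem ha.2.2 ha'.2.2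

omit h in
theorem Tw.of_MgC {a : Cov} (ha : a ∈ MgC) : Tw a 1 := by
  refine ⟨MgC_le ha, map_one _, ?_⟩
  rw [inv_one, one_mul, ← MgC_comm_k ha, mul_assoc, q12_sq, mul_one]
  exact MgC_le ha

theorem Tw.unique {a η η' : Cov} (ha : Tw a η) (ha' : Tw a η') : η = η' := by
  have e := HC_inj h ha.2.2 ha'.2.2
    (by rw [map_mul, map_mul proj η'⁻¹, map_inv, map_inv, ha.2.1, ha'.2.1])
  exact inv_injective (mul_right_cancel e)

theorem twist_facts : inMg (wlW ++ wlW) = true ∧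
    inMg (1 :: wlW ++ (1 :: wlW ++ (1 :: wlW))) = true := by
  constructor <;> decide +kernel

theorem exists_gen : ∃ η : Cov, (∃ t, η = t * Zc * t⁻¹) ∧ proj η = 1 ∧ flip1 η = η⁻¹ ∧ η ^ 3 = 1 := by
  obtain ⟨η, hη, hT⟩ := twist_value h
  have hw : parC (gword q12 wlW) = -1 := by
    rw [← parity_proj, proj_gword, gword_map,
      gword_congr _ (fun _ => (-1 : ℤˣ)) fun x hx => Fi24.parity_g12
        ((show ∀ x ∈ wlW, x < 12 by decide) x hx), gword, List.map_const', List.prod_replicate]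
    decide
  have h2 := (hT.mul hT ((conj_ker hT.2.1).2 (hT.parC_eq.trans hw))).unique h
    (Tw.of_MgC (by rw [← wapp]; exact inMg_mem h (twist_facts h).1))
  have hflip : flip1 η = η⁻¹ := eq_inv_of_mul_eq_one_right h2
  have hb : Tw (q12 1) 1 := Tw.of_MgC (Subgroup.subset_closure ⟨1, by decide, rfl⟩)
  have h1 := hb.mul hT ((conj_ker hT.2.1).2 (hb.parC_eq.trans (parC_q12 (by omega))))
  rw [one_mul, hflip] at h1
  have he : parC (q12 1 * gword q12 wlW) = 1 := by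
    rw [map_mul, parC_q12 (by omega), hw]; rfl
  have hi : proj η⁻¹ = 1 := by rw [map_inv, hT.2.1, inv_one]
  have h12 := h1.mul h1 ((conj_ker hi).1 (h1.parC_eq.trans he))
  have hi2 : proj (η⁻¹ * η⁻¹) = 1 := by rw [map_mul, hi, one_mul]
  have h13 := h1.mul h12 ((conj_ker hi2).1 (h1.parC_eq.trans he))
  have h3 := h13.unique h (Tw.of_MgC (by
    rw [← gword_cons q12, ← wapp, ← wapp]
    exact inMg_mem h (twist_facts h).2))
  refine ⟨η, hη, hT.2.1, hflip, ?_⟩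
  rw [← inv_eq_one, ← inv_pow, pow_succ', pow_two, h3]

theorem mem_zpowers_of_proj {n : Cov} (hn : proj n = 1) : n ∈ Subgroup.zpowers Zc ∧ Zc ^ 3 = 1 := by
  obtain ⟨η, ⟨t, ht⟩, hp, hflip, h3⟩ := exists_gen h
  set S := Subgroup.zpowers η
  have hS : S.Normal := ⟨fun m hm b => by
    obtain ⟨i, rfl⟩ := Subgroup.mem_zpowers_iff.1 hm
    rw [← conj_zpow]
    rcases Int.units_eq_one_or (parC b) with hb | hb
    · rw [(conj_ker hp).1 hb]; exact Subgroup.mem_zpowers_iff.2 ⟨i, rfl⟩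
    · rw [(conj_ker hp).2 hb, hflip]; exact Subgroup.mem_zpowers_iff.2 ⟨-i, by rw [inv_zpow, zpow_neg]⟩⟩
  have hZ : Zc ∈ S := by
    have := hS.conj_mem η (Subgroup.mem_zpowers η) t⁻¹
    rwa [ht, show t⁻¹ * (t * Zc * t⁻¹) * t⁻¹⁻¹ = Zc by group] at this
  have hZ3 : Zc ^ 3 = 1 := by
    obtain ⟨i, hi⟩ := Subgroup.mem_zpowers_iff.1 hZ
    rw [← hi, ← zpow_natCast, ← zpow_mul, mul_comm, zpow_mul, zpow_natCast, h3, one_zpow]
  let v : ℕ → Cov ⧸ S := fun x => QuotientGroup.mk' S (q12 x)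
  have hv : ∀ x, v x = (v x)⁻¹ := fun x => by rw [← map_inv, ← q12_inv]
  have hrel : ∀ w ∈ Fi24.relW, gword v w = 1 := by
    intro w hw
    rw [← gword_map]
    by_cases hc : w = cW
    · rw [hc]; exact (QuotientGroup.eq_one_iff _).2 hZ
    · have hk := List.all_eq_true.1
        (show Fi24.relW.all (fun w => preW.contains w || w == cW) = true by decide +kernel) w hw
      rw [Bool.or_eq_true, beq_iff_eq] at hk
      rw [gword_covW w (List.contains_iff_mem.1 (hk.resolve_right hc)), map_one]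
  let back : Cfsg.Spor.Fi24 →* Cov ⧸ S :=
    PresentedGroup.toGroup (f := fun a => v (Fi24.enc a)) fun r hr => by
      rw [Fi24.rels_eq] at hr
      rw [map_eq_gword Fi24.enc (fun y => y) (FreeGroup.lift fun a => v (Fi24.enc a)) v
        (fun a => FreeGroup.lift_apply_of)
        (fun a => by rw [FreeGroup.lift_apply_of, ← hv]) r]
      exact hrel _ (List.mem_map.2 ⟨r, hr, rfl⟩)
  have e : back.comp proj = QuotientGroup.mk' S := by
    refine MonoidHom.eq_of_eqOn_dense closure_q12 ?_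
    rintro _ ⟨x, hx, rfl⟩
    show back (proj (q12 x)) = _
    rw [proj_q12, Fi24.g12, letterVal_lt Fi24.gen hx]
    refine (PresentedGroup.toGroup.of (f := fun a => v (Fi24.enc a)) _).trans ?_
    exact congrArg v (show Fi24.enc (Fi24.dec x) = x by interval_cases x <;> rfl)
  have hmem : n ∈ S := (QuotientGroup.eq_one_iff n).1 (by
    have := DFunLike.congr_fun e n
    rw [MonoidHom.comp_apply, hn, map_one] at this
    exact this.symm)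
  obtain ⟨i, rfl⟩ := Subgroup.mem_zpowers_iff.1 hmem
  refine ⟨?_, hZ3⟩
  rw [ht, conj_zpow]
  rcases Int.units_eq_one_or (parC t) with hb | hb
  · rw [(conj_ker (by rw [map_zpow, proj_Zc, one_zpow])).1 hb]
    exact Subgroup.mem_zpowers_iff.2 ⟨i, rfl⟩
  · obtain ⟨j, hj⟩ := Subgroup.mem_zpowers_iff.1 hZ
    rw [← conj_zpow]
    have hf : t * Zc * t⁻¹ = Zc⁻¹ := by
      rw [← hj, ← conj_zpow, (conj_ker hp).2 hb, hflip, inv_zpow]
    rw [hf]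
    exact Subgroup.mem_zpowers_iff.2 ⟨-i, by rw [inv_zpow, zpow_neg]⟩

end CfsgLib.Fi24Mult30
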