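import Cfsg.Agent.Fi24Mult30.Pres
import Cfsg.Agent.CosetEnum.Fi24.Stab

/-!
The presented group modulo commutators of the kernel onto Fi24 with even elements, and the copy of
Fi23 times the group of `l` inside it.
-/

set_option autoImplicit false
set_option maxRecDepth 8000

namespace CfsgLib.Fi24Mult30

open CfsgLib.CosetEnum
open CfsgLib.CosetEnum.Fi24 (wrev wone wapp relW10 K10 sW phiW phi_sq phi_one phi_checks card_K10
  lsub lsub_word psi_cases)

theorem relW10_sub : relW10.all (fun w => preW.contains w) = true := by decide +kernel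

/-- the spider relation holds in any group with the kept relators -/
theorem spider_of {P : Type*} [Group P] (v : ℕ → P) (hv : ∀ x, v x = (v x)⁻¹)
    (hr : ∀ w ∈ preW, gword v w = 1) : gword v sW = 1 := by
  let pv : ℕ → P × Cfsg.Spor.Fi23 := fun x => (v x, gword Fi23.g10 (phiW x))
  have hinv : ∀ x, pv x = (pv x)⁻¹ := fun x =>
    Prod.ext (hv x) (inv_eq_of_mul_eq_one_right (phi_sq x)).symm
  have hsplit : ∀ w, gword pv w = (gword v w, gword (fun x => gword Fi23.g10 (phiW x)) w) := by
    intro w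
    induction w with
    | nil => rfl
    | cons x w ih => rw [gword_cons, gword_cons, gword_cons, ih]; rfl
  have hs := phi_checks
  rw [Bool.and_eq_true, Bool.and_eq_true] at hs
  have hrel : ∀ w ∈ relW10, gword pv w = 1 := fun w hw => by
    rw [hsplit, hr w (List.contains_iff_mem.1 (List.all_eq_true.1 relW10_sub w hw)),
      phi_one (List.all_eq_true.1 hs.1.1 w hw)]
    rfl
  have hb := card_K10 hinv hrel
  set K := lsub pv K10
  have : Finite K := Nat.finite_of_card_ne_zero hb.2
  let p : K →* Cfsg.Spor.Fi23 := (MonoidHom.snd _ _).comp K.subtype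
  have hS : Fi24.M23.S9 ≤ p.range := by
    rw [Fi24.M23.S9, Subgroup.closure_le]
    rintro _ ⟨x, hx, rfl⟩
    have hpre : ∀ y ∈ [1, 2, 3, 4, 5, 6, 7, 8, 9], ∃ x ∈ K10, phiW x = [y] := by decide
    obtain ⟨z, hz, e⟩ := hpre x hx
    refine ⟨⟨pv z, Subgroup.subset_closure ⟨z, hz, rfl⟩⟩, ?_⟩
    show gword Fi23.g10 (phiW z) = _
    rw [e, Fi23.gword_one]
  have : Finite p.range := Finite.of_surjective _ p.rangeRestrict_surjective
  have hle : Nat.card K ≤ Nat.card p.range :=
    hb.1.trans (Fi24.M23.card_S9_ge.trans (Subgroup.card_le_of_le hS))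
  have hbij : Function.Bijective p.rangeRestrict :=
    p.rangeRestrict_surjective.bijective_of_nat_card_le hle
  have hm : gword pv sW ∈ K := lsub_word (by decide +kernel)
  have h1 : (⟨gword pv sW, hm⟩ : K) = 1 := by
    apply hbij.1
    rw [map_one]
    refine Subtype.ext ?_
    show (gword pv sW).2 = 1
    rw [hsplit]
    exact phi_one hs.1.2
  have h0 : gword pv sW = 1 := congrArg Subtype.val h1
  rw [hsplit, Prod.mk_eq_one] at h0
  exact h0.1

/-- the even elements -/
noncomputable def Even0 : Subgroup Pre := preParity.ker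

/-- the kernel onto Fi24 -/
noncomputable def Ker0 : Subgroup Pre := toFi24.ker

instance even0_normal : Even0.Normal := by unfold Even0; infer_instance

instance ker0_normal : Ker0.Normal := by unfold Ker0; infer_instance

/-- the commutators to be killed -/
noncomputable def Com0 : Subgroup Pre := ⁅Ker0, Even0⁆

instance com0_normal : Com0.Normal := by unfold Com0; infer_instance

theorem com0_le_ker : Com0 ≤ Ker0 := Subgroup.commutator_le_left _ _

theorem com0_le_even : Com0 ≤ Even0 := Subgroup.commutator_le_right _ _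

/-- the universal cover in question, extended by the odd elements -/
abbrev Cov : Type := Pre ⧸ Com0

/-- the letters of the cover -/
noncomputable def q12 (x : ℕ) : Cov := QuotientGroup.mk' Com0 (p12 x)

theorem q12_inv (x : ℕ) : q12 x = (q12 x)⁻¹ := by
  rw [q12, ← map_inv, ← p12_inv]

theorem q12_sq (x : ℕ) : q12 x * q12 x = 1 := by rw [q12, ← map_mul, p12_sq, map_one]

theorem q12_gword (w : List ℕ) : gword q12 w = QuotientGroup.mk' Com0 (gword p12 w) :=
  (gword_map (QuotientGroup.mk' Com0) p12 w).symm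

theorem gword_covW : ∀ w ∈ preW, gword q12 w = 1 := fun w hw => by
  rw [q12_gword, gword_preW w hw, map_one]

theorem closure_q12 : Subgroup.closure {a | ∃ x < 12, q12 x = a} = ⊤ := by
  rw [eq_top_iff]
  intro a _
  obtain ⟨a, rfl⟩ := QuotientGroup.mk'_surjective Com0 a
  have hle : (⊤ : Subgroup Pre) ≤
      (Subgroup.closure {a | ∃ x < 12, q12 x = a}).comap (QuotientGroup.mk' Com0) := by
    rw [← closure_p12, Subgroup.closure_le]
    rintro _ ⟨x, hx, rfl⟩
    exact Subgroup.subset_closure ⟨x, hx, rfl⟩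
  exact hle (Subgroup.mem_top a)

/-- the map onto Fi24 -/
noncomputable def proj : Cov →* Cfsg.Spor.Fi24 := QuotientGroup.lift Com0 toFi24 com0_le_ker

/-- parity -/
noncomputable def parC : Cov →* ℤˣ := QuotientGroup.lift Com0 preParity com0_le_even

theorem proj_q12 (x : ℕ) : proj (q12 x) = Fi24.g12 x :=
  (QuotientGroup.lift_mk' _ _ _).trans (toFi24_p12 x)

theorem proj_gword (w : List ℕ) : proj (gword q12 w) = gword Fi24.g12 w := by
  rw [gword_map]
  exact gword_congr _ _ fun x _ => proj_q12 x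

theorem parC_q12 {x : ℕ} (hx : x < 12) : parC (q12 x) = -1 :=
  (QuotientGroup.lift_mk' _ _ _).trans (preParity_p12 hx)

theorem parity_toFi24 (a : Pre) : Fi24.parity (toFi24 a) = preParity a := by
  have e : Fi24.parity.comp toFi24 = preParity := by
    refine MonoidHom.eq_of_eqOn_dense closure_p12 ?_
    rintro _ ⟨x, hx, rfl⟩
    show Fi24.parity (toFi24 (p12 x)) = _
    rw [toFi24_p12, Fi24.parity_g12 hx, preParity_p12 hx]
  exact DFunLike.congr_fun e a

theorem parity_proj (a : Cov) : Fi24.parity (proj a) = parC a := by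
  obtain ⟨a, rfl⟩ := QuotientGroup.mk'_surjective Com0 a
  exact parity_toFi24 a

/-- the kernel onto Fi24 commutes with all even elements -/
theorem ker_comm {n a : Cov} (hn : proj n = 1) (ha : parC a = 1) : n * a = a * n := by
  obtain ⟨n, rfl⟩ := QuotientGroup.mk'_surjective Com0 n
  obtain ⟨a, rfl⟩ := QuotientGroup.mk'_surjective Com0 a
  have hn' : n ∈ Ker0 := hn
  have ha' : a ∈ Even0 := ha
  have : n * a * n⁻¹ * a⁻¹ ∈ Com0 := Subgroup.commutator_mem_commutator hn' ha'
  rw [← map_mul, ← map_mul]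
  refine (QuotientGroup.mk'_eq_mk' Com0).2 ⟨(n * a)⁻¹ * (a * n), ?_, mul_inv_cancel_left _ _⟩
  have e : (n * a)⁻¹ * (a * n) = a⁻¹ * n⁻¹ * ((n * a * n⁻¹ * a⁻¹)⁻¹) * (a⁻¹ * n⁻¹)⁻¹ := by group
  rw [e]
  exact com0_normal.conj_mem _ (inv_mem this) _

theorem commute_l {x : ℕ} (hx : x < 10) : q12 x * q12 10 = q12 10 * q12 x := by
  have hl : (List.range 10).all (fun x => preW.contains [x, 10, x, 10]) = true := by decide +kernel
  have h := gword_covW _ (List.contains_iff_mem.1 (List.all_eq_true.1 hl x (List.mem_range.2 hx)))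
  rw [gword_cons, gword_cons, gword_cons, gword_cons, gword_nil, mul_one, ← mul_assoc] at h
  rw [eq_inv_of_mul_eq_one_left h, mul_inv_rev, ← q12_inv, ← q12_inv]

/-- a letter of Fi23 times `l` -/
noncomputable def psiVal (x : ℕ) : Cov := q12 x * q12 10

theorem gword_psiVal : ∀ {w : List ℕ}, (∀ x ∈ w, x < 10) →
    gword psiVal w = gword q12 w * q12 10 ^ w.length
  | [], _ => by simp [gword_nil]
  | x :: w, h => by
    rw [gword_cons, gword_psiVal fun y hy => h y (List.mem_cons_of_mem _ hy), gword_cons,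
      List.length_cons, pow_succ']
    have hc : q12 10 * gword q12 w = gword q12 w * q12 10 := by
      have : gword q12 w ∈ Subgroup.centralizer ({q12 10} : Set Cov) :=
        gword_mem _ _ fun y hy => Subgroup.mem_centralizer_iff.2 fun z hz => by
          rw [Set.mem_singleton_iff.1 hz, commute_l (h y (List.mem_cons_of_mem _ hy))]
      exact Subgroup.mem_centralizer_iff.1 this _ rfl
    unfold psiVal
    calc q12 x * q12 10 * (gword q12 w * q12 10 ^ w.length)
        = q12 x * (q12 10 * gword q12 w) * q12 10 ^ w.length := by simp only [mul_assoc]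
      _ = q12 x * gword q12 w * (q12 10 * q12 10 ^ w.length) := by rw [hc]; simp only [mul_assoc]

theorem psi_cases_pre : Fi23.Tab.relWords.all (fun w => w.all (fun x => Nat.blt x 10) &&
    ((Nat.beq (w.length % 2) 0 && (preW.contains w || preW.contains w.reverse ||
        decide (w = sW) || decide (w = sW.reverse))) ||
      (Nat.beq (w.length % 2) 1 && (preW.contains (10 :: w) || preW.contains (10 :: w.reverse))))) =
    true := by
  decide +kernel

theorem psi_rels {w : List ℕ} (hw : w ∈ Fi23.Tab.relWords) : gword psiVal w = 1 := by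
  have h := List.all_eq_true.1 psi_cases_pre w hw
  simp only [Bool.and_eq_true, Bool.or_eq_true, List.all_eq_true, Nat.blt, Nat.ble_eq,
    decide_eq_true_eq] at h
  obtain ⟨hs, h⟩ := h
  rw [gword_psiVal fun x hx => hs x hx]
  have hl2 : q12 10 * q12 10 = 1 := q12_sq 10
  have hsp := spider_of q12 q12_inv gword_covW
  rcases h with ⟨he, hr⟩ | ⟨ho, hr⟩
  · obtain ⟨m, hm⟩ : 2 ∣ w.length := Nat.dvd_of_mod_eq_zero (Nat.eq_of_beq_eq_true he)
    rw [hm, pow_mul, pow_two, hl2, one_pow, mul_one]
    rcases hr with ((h1 | h1) | h1) | h1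
    · exact gword_covW _ (List.contains_iff_mem.1 h1)
    · have := gword_covW _ (List.contains_iff_mem.1 h1)
      rwa [wrev q12_inv, inv_eq_one] at this
    · rw [h1]; exact hsp
    · rw [h1, wrev q12_inv, hsp, inv_one]
  · obtain ⟨m, hm⟩ : ∃ m, w.length = 2 * m + 1 :=
      ⟨w.length / 2, by have := Nat.eq_of_beq_eq_true ho; omega⟩
    rw [hm, pow_succ, pow_mul, pow_two, hl2, one_pow, one_mul]
    rcases hr with h1 | h1
    · have := gword_covW _ (List.contains_iff_mem.1 h1)
      rw [gword_cons] at this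
      rw [eq_inv_of_mul_eq_one_right this, ← q12_inv, hl2]
    · have := gword_covW _ (List.contains_iff_mem.1 h1)
      rw [gword_cons, wrev q12_inv] at this
      rw [← eq_of_mul_inv_eq_one this, hl2]

theorem psiVal_inv {x : ℕ} (hx : x < 10) : (psiVal x)⁻¹ = psiVal x := by
  rw [psiVal, mul_inv_rev, ← q12_inv, ← q12_inv, commute_l hx]

/-- Fi23 inside the cover -/
noncomputable def psiC : Cfsg.Spor.Fi23 →* Cov :=
  PresentedGroup.toGroup (f := fun x => psiVal (Fi23.enc x)) fun r hr => by
    rw [Fi23.rels_eq] at hr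
    let v : ℕ → Cov := letterVal 10 psiVal
    have hv : ∀ x, v x = (v x)⁻¹ := fun x =>
      letterVal_inv 10 psiVal (fun y => y) (fun y hy => ⟨hy, (psiVal_inv hy).symm⟩) (fun _ hy => hy) x
    rw [map_eq_gword Fi23.enc (fun y => y) (FreeGroup.lift fun x => psiVal (Fi23.enc x)) v
      (fun x => by rw [FreeGroup.lift_apply_of]; exact (letterVal_lt _ (Fi23.enc_lt x)).symm)
      (fun x => by
        rw [FreeGroup.lift_apply_of, psiVal_inv (Fi23.enc_lt x)]
        exact (letterVal_lt _ (Fi23.enc_lt x)).symm) r]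
    refine gword_of_wordsFrom v (fun y => y) hv Fi23.relWords_to_list (fun w hw => ?_) _
      (List.mem_map.2 ⟨r, hr, rfl⟩)
    have hs : ∀ x ∈ w, x < 10 := by
      have h := List.all_eq_true.1 psi_cases_pre w hw
      simp only [Bool.and_eq_true, List.all_eq_true, Nat.blt, Nat.ble_eq] at h
      exact fun x hx => h.1 x hx
    rw [gword_congr v psiVal fun x hx => letterVal_lt _ (hs x hx)]
    exact psi_rels hw

theorem psiC_gen {x : ℕ} (hx : x < 10) : psiC (Fi23.g10 x) = psiVal x := by
  rw [Fi23.g10, letterVal_lt Fi23.gen hx]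
  refine (PresentedGroup.toGroup.of (f := fun x => psiVal (Fi23.enc x)) _).trans ?_
  exact congrArg psiVal (show Fi23.enc (Fi23.dec x) = x by interval_cases x <;> rfl)

theorem proj_psiC (u : Cfsg.Spor.Fi23) : proj (psiC u) = Fi24.psi u := by
  have e : proj.comp psiC = Fi24.psi := by
    refine MonoidHom.eq_of_eqOn_dense Fi23.closure_g10 ?_
    rintro _ ⟨x, hx, rfl⟩
    show proj (psiC (Fi23.g10 x)) = _
    rw [psiC_gen hx, Fi24.psi_gen hx, psiVal, map_mul, proj_q12, proj_q12]
    rfl
  exact DFunLike.congr_fun e u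

theorem psiC_commute_l (a : Cfsg.Spor.Fi23) : psiC a * q12 10 = q12 10 * psiC a := by
  have hle : (⊤ : Subgroup Cfsg.Spor.Fi23) ≤
      (Subgroup.centralizer ({q12 10} : Set Cov)).comap psiC := by
    rw [← Fi23.closure_g10, Subgroup.closure_le]
    rintro _ ⟨x, hx, rfl⟩
    refine Subgroup.mem_centralizer_iff.2 fun z hz => ?_
    rw [Set.mem_singleton_iff.1 hz, psiC_gen hx, psiVal, ← mul_assoc, ← commute_l hx]
  exact (Subgroup.mem_centralizer_iff.1 (hle (Subgroup.mem_top a)) _ rfl).symm

/-- the subgroup of all letters but `k` -/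
noncomputable def HC : Subgroup Cov := lsub q12 [0, 1, 2, 3, 4, 5, 6, 7, 8, 9, 10]

theorem q12_mem_HC {x : ℕ} (hx : x < 11) : q12 x ∈ HC :=
  Subgroup.subset_closure ⟨x, by simp; omega, rfl⟩

theorem gword_mem_HC {w : List ℕ} (h : ∀ x ∈ w, x < 11) : gword q12 w ∈ HC :=
  gword_mem HC q12 fun x hx => q12_mem_HC (h x hx)

theorem HC_cases {a : Cov} (ha : a ∈ HC) : ∃ u, a = psiC u ∨ a = psiC u * q12 10 := by
  have hl2 : q12 10 * q12 10 = 1 := q12_sq 10
  induction ha using Subgroup.closure_induction with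
  | mem a ha =>
    obtain ⟨x, hx, rfl⟩ := ha
    have hx' : x < 11 := (show ∀ x ∈ [0, 1, 2, 3, 4, 5, 6, 7, 8, 9, 10], x < 11 by decide) x hx
    rcases Nat.lt_succ_iff_lt_or_eq.1 hx' with h | rfl
    · exact ⟨Fi23.g10 x, Or.inr (by rw [psiC_gen h, psiVal, mul_assoc, hl2, mul_one])⟩
    · exact ⟨1, Or.inr (by rw [map_one, one_mul])⟩
  | one => exact ⟨1, Or.inl (map_one psiC).symm⟩
  | mul a b _ _ ha hb =>
    obtain ⟨u, rfl | rfl⟩ := ha <;> obtain ⟨v, rfl | rfl⟩ := hb <;> refine ⟨u * v, ?_⟩
    · exact Or.inl (map_mul psiC u v).symm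
    · exact Or.inr (by rw [map_mul, mul_assoc])
    · exact Or.inr (by rw [map_mul, mul_assoc, ← psiC_commute_l, ← mul_assoc])
    · exact Or.inl (by
        rw [map_mul, mul_assoc, ← mul_assoc (q12 10), ← psiC_commute_l, mul_assoc (psiC v), hl2,
          mul_one])
  | inv a _ ha =>
    obtain ⟨u, rfl | rfl⟩ := ha <;> refine ⟨u⁻¹, ?_⟩
    · exact Or.inl (map_inv psiC u).symm
    · exact Or.inr (by rw [mul_inv_rev, ← q12_inv, ← map_inv, psiC_commute_l])

/-- the copy in the cover meets the kernel trivially -/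
theorem HC_inj (h : Fi24.ChecksOK) {a b : Cov} (ha : a ∈ HC) (hb : b ∈ HC)
    (e : proj a = proj b) : a = b := by
  have key : ∀ c ∈ HC, proj c = 1 → c = 1 := by
    intro c hc e1
    have hp : parC c = 1 := by rw [← parity_proj, e1, map_one]
    obtain ⟨u, rfl | rfl⟩ := HC_cases hc
    · rw [proj_psiC] at e1
      rw [Fi24.psi_inj h (e1.trans (map_one Fi24.psi).symm), map_one]
    · exfalso
      rw [map_mul, ← parity_proj, proj_psiC, Fi24.parity_psi, parC_q12 (by omega), one_mul] at hp
      exact Fi24.parity_ne hp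
  exact (mul_inv_eq_one.1 (key (a * b⁻¹) (mul_mem ha (inv_mem hb))
    (by rw [map_mul, map_inv, e, mul_inv_cancel])))

end CfsgLib.Fi24Mult30
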