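import Cfsg.Agent.CosetEnum.Present
import Mathlib

/-!
Elements of a group as values of pairs of involutions: the permutations `(z, b) ↦ (a z, !b)`,
with `a` inverted on one side, and the evaluation of products of evenly many of them.
-/

set_option autoImplicit false
set_option maxRecDepth 8000

namespace CfsgLib.Fi24Mult30

open CfsgLib.CosetEnum

variable {Γ : Type} [Group Γ]

/-- one factor: `a` from the side `true`, its inverse from the side `false` -/
def side (a : Γ) : Bool → Γ
  | true => a
  | false => a⁻¹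

/-- the involution of an element -/
def flipV (a : Γ) : Equiv.Perm (Γ × Bool) where
  toFun p := (side a p.2 * p.1, !p.2)
  invFun p := (side a p.2 * p.1, !p.2)
  left_inv p := by rcases p with ⟨z, b⟩; cases b <;> simp [side]
  right_inv p := by rcases p with ⟨z, b⟩; cases b <;> simp [side]

theorem flipV_inv (a : Γ) : (flipV a)⁻¹ = flipV a := rfl

theorem flipV_sq (a : Γ) : flipV a * flipV a = 1 :=
  mul_eq_one_iff_eq_inv.2 (flipV_inv a).symm

/-- a permutation commuting with right translations and shifting the side by `p` -/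
def Good (P : Equiv.Perm (Γ × Bool)) (p : Bool) : Prop :=
  ∀ (z : Γ) (b : Bool), P (z, b) = ((P (1, b)).1 * z, p ^^ b)

theorem good_flipV (a : Γ) : Good (flipV a) true := fun z b => by
  show (side a b * z, !b) = ((side a b * 1) * z, true ^^ b)
  rw [mul_one, Bool.true_xor]

theorem good_one : Good (1 : Equiv.Perm (Γ × Bool)) false := fun z b => by simp

theorem Good.comp {P Q : Equiv.Perm (Γ × Bool)} {p q : Bool} (hP : Good P p) (hQ : Good Q q) :
    Good (P * Q) (p ^^ q) := fun z b => by
  rw [Equiv.Perm.mul_apply, Equiv.Perm.mul_apply, hQ z b, hQ 1 b, mul_one, hP, hP (Q (1, b)).1,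
    mul_assoc, Bool.xor_assoc]

theorem Good.inv {P : Equiv.Perm (Γ × Bool)} {p : Bool} (hP : Good P p) : Good P⁻¹ p :=
    fun z b => by
  have key : ∀ z, P⁻¹ (z, b) = (((P (1, p ^^ b)).1)⁻¹ * z, p ^^ b) := fun z => by
    rw [Equiv.Perm.inv_eq_iff_eq, hP, mul_inv_cancel_left]
    cases p <;> cases b <;> rfl
  rw [key z, key 1, mul_one]

/-- the value at the base side -/
def ev (P : Equiv.Perm (Γ × Bool)) : Γ := (P (1, false)).1

theorem ev_mul {P Q : Equiv.Perm (Γ × Bool)} {p : Bool} (hP : Good P p) (hQ : Good Q false) :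
    ev (P * Q) = ev P * ev Q := by
  show (P (Q (1, false))).1 = _
  rw [hQ 1 false, Bool.xor_false, mul_one, hP]
  rfl

theorem ev_one : ev (1 : Equiv.Perm (Γ × Bool)) = 1 := rfl

theorem ev_pair (a c : Γ) : ev (flipV a * flipV c) = a * c⁻¹ := by
  show side a true * (side c false * 1) = _
  simp [side]

theorem ev_pow {P : Equiv.Perm (Γ × Bool)} (hP : Good P false) :
    ∀ n : ℕ, Good (P ^ n) false ∧ ev (P ^ n) = ev P ^ n
  | 0 => by rw [pow_zero, pow_zero]; exact ⟨good_one, rfl⟩
  | n + 1 => by
    rw [pow_succ, pow_succ]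
    exact ⟨(ev_pow hP n).1.comp hP, by rw [ev_mul (ev_pow hP n).1 hP, (ev_pow hP n).2]⟩

theorem flipV_pair_pow {a c : Γ} {m : ℕ} (hac : (a * c⁻¹) ^ m = 1) :
    (flipV a * flipV c) ^ m = 1 := by
  have h2 : (a⁻¹ * c) ^ m = 1 := by
    rw [show a⁻¹ * c = a⁻¹ * (a * c⁻¹)⁻¹ * a by group]
    have := conj_pow (i := m) (a := a⁻¹) (b := (a * c⁻¹)⁻¹)
    rw [inv_inv] at this
    rw [this, inv_pow, hac, inv_one, mul_one, inv_mul_cancel]
  have key : ∀ (n : ℕ) (z : Γ) (b : Bool), ((flipV a * flipV c) ^ n) (z, b) =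
      ((cond b ((a⁻¹ * c) ^ n) ((a * c⁻¹) ^ n)) * z, b) := by
    intro n
    induction n with
    | zero => intro z b; cases b <;> simp
    | succ n ih =>
      intro z b
      rw [pow_succ', Equiv.Perm.mul_apply, ih, Equiv.Perm.mul_apply]
      cases b <;> simp [flipV, side, pow_succ', mul_assoc]
  refine Equiv.ext fun q => ?_
  rcases q with ⟨z, b⟩
  rw [key m z b, hac, h2]
  cases b <;> simp

theorem good_gword {v : ℕ → Equiv.Perm (Γ × Bool)} (hv : ∀ x, x < 12 → Good (v x) true) :
    ∀ {w : List ℕ}, (∀ x ∈ w, x < 12) → Good (gword v w) (Nat.bodd w.length)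
  | [], _ => by rw [gword_nil]; exact good_one
  | x :: w, hw => by
    have := (hv x (hw x List.mem_cons_self)).comp
      (good_gword hv (w := w) fun y hy => hw y (List.mem_cons_of_mem _ hy))
    rw [gword_cons, List.length_cons, Nat.bodd_succ]
    rwa [Bool.true_xor] at this

/-- the word value of pairs -/
theorem ev_gword_invol {A : ℕ → Γ} : ∀ {w : List ℕ}, w.length % 2 = 0 →
    (∀ x ∈ w, x < 12) → (∀ x ∈ w, (A x)⁻¹ = A x) →
    ev (gword (fun x => flipV (A x)) w) = gword A w
  | [], _, _, _ => rfl
  | [x], h, _, _ => by simp at h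
  | x :: y :: w, h, hw, hA => by
    have hl : w.length % 2 = 0 := by simp only [List.length_cons] at h; omega
    have hg : Good (gword (fun x => flipV (A x)) w) false := by
      have := good_gword (v := fun x => flipV (A x)) (fun x _ => good_flipV (A x))
        (w := w) fun z hz => hw z (by simp [hz])
      rwa [show Nat.bodd w.length = false by
        rw [← Bool.not_eq_true]; simp [Nat.mod_two_of_bodd] at hl ⊢; exact hl] at this
    rw [gword_cons, gword_cons, gword_cons, gword_cons, ← mul_assoc, ← mul_assoc,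
      ev_mul ((good_flipV _).comp (good_flipV _)) hg, ev_pair, hA y (by simp),
      ev_gword_invol hl (fun z hz => hw z (by simp [hz])) fun z hz => hA z (by simp [hz])]

end CfsgLib.Fi24Mult30
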