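import Mathlib

/-!
Central values of the relations between an element and involutions inverting it modulo the centre.
-/

set_option autoImplicit false

namespace CfsgLib.Fi24Mult30

variable {Γ : Type} [Group Γ]

/-- the central value of inversion, from the square of the product -/
theorem conj_of_sq {Y U : Γ} (hy : Y * Y = 1) {c : Γ} (hc : (U * Y) * (U * Y) = c)
    (hz : c ∈ Subgroup.center Γ) : Y * U * Y = c * U⁻¹ := by
  have e : Y * U * Y = U⁻¹ * c := by rw [← hc]; group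
  rw [e, Subgroup.mem_center_iff.1 hz]

theorem eq_one_of_sq_cube {x : Γ} (h2 : x * x = 1) (h3 : x * x * x = 1) : x = 1 := by
  rwa [h2, one_mul] at h3

theorem conj_center {Y c : Γ} (hy : Y * Y = 1) (hc : c ∈ Subgroup.center Γ) : Y * c * Y = c := by
  rw [Subgroup.mem_center_iff.1 hc Y, mul_assoc, hy, mul_one]

theorem conj_mul {Y a b : Γ} (hy : Y * Y = 1) : Y * (a * b) * Y = Y * a * Y * (Y * b * Y) := by
  simp only [mul_assoc]; rw [← mul_assoc Y Y, hy, one_mul]

theorem conj_inv {Y a : Γ} (hy : Y * Y = 1) : Y * a⁻¹ * Y = (Y * a * Y)⁻¹ := by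
  have e : Y⁻¹ = Y := inv_eq_of_mul_eq_one_right hy
  rw [mul_inv_rev, mul_inv_rev, e, mul_assoc]

variable {U : Γ} {Y Y' c c' : Γ}

/-- conjugating the inverse -/
theorem conj_inv_U (hy : Y * Y = 1) (hc : c ∈ Subgroup.center Γ) (h : Y * U * Y = c * U⁻¹) :
    Y * U⁻¹ * Y = c⁻¹ * U := by
  rw [conj_inv hy, h, mul_inv_rev, inv_inv, Subgroup.mem_center_iff.1 (inv_mem hc)]

theorem twice (hy : Y * Y = 1) (hy' : Y' * Y' = 1) (hc : c ∈ Subgroup.center Γ)
    (hc' : c' ∈ Subgroup.center Γ) (h : Y * U * Y = c * U⁻¹) (h' : Y' * U * Y' = c' * U⁻¹) :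
    Y * (Y' * U * Y') * Y = c' * c⁻¹ * U := by
  rw [h', conj_mul hy, conj_center hy hc', conj_inv_U hy hc h, mul_assoc]

theorem thrice (hy : Y * Y = 1) (hy' : Y' * Y' = 1) (hc : c ∈ Subgroup.center Γ)
    (hc' : c' ∈ Subgroup.center Γ) (h : Y * U * Y = c * U⁻¹) (h' : Y' * U * Y' = c' * U⁻¹) :
    Y * (Y' * (Y * U * Y) * Y') * Y = c * c'⁻¹ * c * U⁻¹ := by
  have e : Y' * (c * U⁻¹) * Y' = c * c'⁻¹ * U := by
    rw [conj_mul hy', conj_center hy' hc, conj_inv_U hy' hc' h', ← mul_assoc]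
  rw [h, e, conj_mul hy, conj_center hy (mul_mem hc (inv_mem hc')), h, ← mul_assoc]

/-- braided involutions have central values with equal cubes -/
theorem cube_eq (hy : Y * Y = 1) (hy' : Y' * Y' = 1) (hb : Y * Y' * Y = Y' * Y * Y')
    (hc : c ∈ Subgroup.center Γ) (hc' : c' ∈ Subgroup.center Γ)
    (h : Y * U * Y = c * U⁻¹) (h' : Y' * U * Y' = c' * U⁻¹) :
    c * c * c = c' * c' * c' := by
  have e1 := thrice hy hy' hc hc' h h'
  have e2 := thrice hy' hy hc' hc h' h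
  have e : Y * (Y' * (Y * U * Y) * Y') * Y = Y' * (Y * (Y' * U * Y') * Y) * Y' := by
    calc Y * (Y' * (Y * U * Y) * Y') * Y = (Y * Y' * Y) * U * (Y * Y' * Y) := by
          simp only [mul_assoc]
      _ = (Y' * Y * Y') * U * (Y' * Y * Y') := by rw [hb]
      _ = _ := by simp only [mul_assoc]
  rw [e, e2] at e1
  have e3 := mul_right_cancel e1
  have q : c' * c⁻¹ * c' = c * c'⁻¹ * c := e3
  have hC := fun x => Subgroup.mem_center_iff.1 hc x
  have hC' := fun x => Subgroup.mem_center_iff.1 hc' x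
  have k : Commute c c' := hC' c
  have q1 : c * c * c = c * (c' * c⁻¹ * c') * c' := by
    rw [q]
    have e4 : c * c'⁻¹ * c = c * c * c'⁻¹ := by rw [mul_assoc, ← (k.inv_right).eq, ← mul_assoc]
    rw [e4]; simp only [mul_assoc, inv_mul_cancel, mul_one]
  rw [q1, ← mul_assoc c, ← mul_assoc c, k.eq, mul_inv_cancel_right]

/-- commuting involutions have central values with equal squares -/
theorem sq_eq (hy : Y * Y = 1) (hy' : Y' * Y' = 1) (hb : Y * Y' = Y' * Y)
    (hc : c ∈ Subgroup.center Γ) (hc' : c' ∈ Subgroup.center Γ)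
    (h : Y * U * Y = c * U⁻¹) (h' : Y' * U * Y' = c' * U⁻¹) :
    c * c = c' * c' := by
  have e1 := twice hy hy' hc hc' h h'
  have e2 := twice hy' hy hc' hc h' h
  have e : Y * (Y' * U * Y') * Y = Y' * (Y * U * Y) * Y' := by
    calc Y * (Y' * U * Y') * Y = (Y * Y') * U * (Y' * Y) := by simp only [mul_assoc]
      _ = (Y' * Y) * U * (Y * Y') := by rw [hb]
      _ = _ := by simp only [mul_assoc]
  rw [e, e2] at e1
  have q : c * c'⁻¹ = c' * c⁻¹ := mul_right_cancel e1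
  have k : Commute c c' := Subgroup.mem_center_iff.1 hc' c
  calc c * c = c * (c * c'⁻¹) * c' := by simp only [mul_assoc, inv_mul_cancel, mul_one]
    _ = c * (c' * c⁻¹) * c' := by rw [q]
    _ = c' * c' := by rw [← mul_assoc c, k.eq, mul_inv_cancel_right]

/-- equal squares and cubes -/
theorem eq_of_sq_cube (k : Commute c c') (h2 : c * c = c' * c') (h3 : c * c * c = c' * c' * c') :
    c = c' := by
  rw [h2] at h3
  exact mul_left_cancel h3

/-- the rescaled element is inverted exactly and has order dividing three -/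
theorem rescale (hy : Y * Y = 1) (hc : c ∈ Subgroup.center Γ) {c0 : Γ}
    (hc0 : c0 ∈ Subgroup.center Γ) (hU : U * U * U = c0) (h : Y * U * Y = c * U⁻¹) :
    c0 * c0 = c * c * c ∧ (c * c0⁻¹ * U) * (c * c0⁻¹ * U) * (c * c0⁻¹ * U) = 1 := by
  have e : (Y * U * Y) * (Y * U * Y) * (Y * U * Y) = c0 := by
    rw [← conj_mul hy, ← conj_mul hy, hU, conj_center hy hc0]
  have p3 : ∀ x : Γ, x * x * x = x ^ 3 := fun x => by rw [pow_succ, pow_two]
  have kc : Commute c U⁻¹ := (Subgroup.mem_center_iff.1 hc U⁻¹).symm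
  rw [h, p3, kc.mul_pow, inv_pow, ← p3, ← p3, hU] at e
  have e3 : c * c * c = c0 * c0 := mul_inv_eq_iff_eq_mul.1 e
  have ka : Commute (c * c0⁻¹) U :=
    (Subgroup.mem_center_iff.1 (mul_mem hc (inv_mem hc0)) U).symm
  have kd : Commute c c0⁻¹ := (Subgroup.mem_center_iff.1 hc c0⁻¹).symm
  refine ⟨e3.symm, ?_⟩
  rw [p3, ka.mul_pow, kd.mul_pow, inv_pow, ← p3, ← p3, ← p3, e3, hU]
  group

/-- the rescaled element is inverted exactly -/
theorem rescale_conj (hy : Y * Y = 1) (hc : c ∈ Subgroup.center Γ) {c0 : Γ}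
    (hc0 : c0 ∈ Subgroup.center Γ) (h0 : c0 * c0 = c * c * c) (h : Y * U * Y = c * U⁻¹) :
    Y * (c * c0⁻¹ * U) * Y = (c * c0⁻¹ * U)⁻¹ := by
  set α := c * c0⁻¹ with hα
  have hA : α ∈ Subgroup.center Γ := mul_mem hc (inv_mem hc0)
  rw [conj_mul hy, conj_center hy hA, h, mul_inv_rev, Subgroup.mem_center_iff.1 (inv_mem hA),
    ← mul_assoc]
  congr 1
  rw [eq_inv_iff_mul_eq_one]
  have k : Commute c0⁻¹ c := Subgroup.mem_center_iff.1 hc c0⁻¹
  calc α * c * α = c * (c0⁻¹ * c) * c * c0⁻¹ := by rw [hα]; simp only [mul_assoc]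
    _ = c * (c * c0⁻¹) * c * c0⁻¹ := by rw [k.eq]
    _ = c * c * (c0⁻¹ * c) * c0⁻¹ := by simp only [mul_assoc]
    _ = c * c * (c * c0⁻¹) * c0⁻¹ := by rw [k.eq]
    _ = c * c * c * (c0⁻¹ * c0⁻¹) := by simp only [mul_assoc]
    _ = 1 := by rw [← h0]; group

end CfsgLib.Fi24Mult30
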