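import Cfsg.Agent.Fi24Mult30.Pres
import Cfsg.Agent.Fi24Mult30.Flip
import Cfsg.Agent.Fi24Mult30.Signs
import Cfsg.Agent.CosetEnum.Fi24.Index
import Cfsg.Agent.Fi23Mult.Main

/-!
Central extensions of the even part of Fi24 receive the even part of the presentation without the
seventeenth power relator.

The lifts of Fi23 are exact, the lift of `k l` is normalised to be inverted exactly by them and the
one sign left over vanishes, as the long relator has a conjugate among elements centralising `l`.
-/

set_option autoImplicit false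
set_option maxRecDepth 8000

namespace CfsgLib.Fi24Mult30

open CfsgLib.CosetEnum
open CfsgLib.CosetEnum.Fi24 (g12 relW lW lbl psi parity ChecksOK wrev wone wapp)
open CfsgLib.CosetEnum.Fi24.Tab (runL)

theorem fi24_pair {x y : ℕ} (hx : x < 12) (hy : y < 12) : (g12 x * g12 y) ^ lbl x y = 1 := by
  have h : (List.range 12).all (fun x => (List.range 12).all fun y => x == y ||
      relW.contains (List.replicate (lbl x y) [x, y]).flatten) = true := by decide +kernel
  have h' := List.all_eq_true.1 (List.all_eq_true.1 h x (List.mem_range.2 hx)) y (List.mem_range.2 hy)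
  rw [Bool.or_eq_true, beq_iff_eq] at h'
  rcases h' with rfl | h'
  · rw [Fi24.g12_sq, one_pow]
  · have e := Fi24.gword_relW _ (List.contains_iff_mem.1 h')
    rwa [Fi24.gword_replicate, gword_cons, wone] at e

theorem comm_fi24_l {x : ℕ} (hx : x < 11) : g12 x * g12 10 = g12 10 * g12 x := by
  rcases Nat.lt_succ_iff_lt_or_eq.1 hx with h | rfl
  · exact Fi24.commute_l h
  · rfl

variable {Γ : Type} [Group Γ]

/-- letters of the lift: exact lifts of Fi23, 1 for `l`, the lift of `k l` for `k` -/
def letA (Y : ℕ → Γ) (U : Γ) (x : ℕ) : Γ := if x < 10 then Y x else if x = 11 then U else 1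

variable (s0 : Γ →* Cfsg.Spor.Fi24)

/-- letters over the products of the letters with `l`, with all pair relations -/
structure GoodLifts (A : ℕ → Γ) : Prop where
  image : ∀ x < 12, s0 (A x) = g12 x * g12 10
  pairs : ∀ x < 12, ∀ y < 12, (A x * (A y)⁻¹) ^ lbl x y = 1
  invol : ∀ x < 11, (A x)⁻¹ = A x

theorem GoodLifts.vpair {A : ℕ → Γ} (hA : GoodLifts s0 A) {x y : ℕ} (hx : x < 12) (hy : y < 12) :
    (flipV (A x) * flipV (A y)) ^ lbl x y = 1 :=
  flipV_pair_pow (hA.pairs x hx y hy)

theorem image_ev {A : ℕ → Γ} (hA : ∀ x < 12, s0 (A x) = g12 x * g12 10) : ∀ {w : List ℕ},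
    w.length % 2 = 0 → (∀ x ∈ w, x < 12) →
    Good (gword (fun x => flipV (A x)) w) false ∧
      s0 (ev (gword (fun x => flipV (A x)) w)) = gword g12 w
  | [], _, _ => by
    rw [gword_nil, gword_nil, ev_one, map_one]
    exact ⟨good_one, rfl⟩
  | [x], h, _ => by simp at h
  | x :: y :: w, h, hw => by
    have hl : w.length % 2 = 0 := by simp only [List.length_cons] at h; omega
    obtain ⟨hg, e⟩ := image_ev hA hl fun z hz => hw z (by simp [hz])
    rw [gword_cons, gword_cons, gword_cons, gword_cons, ← mul_assoc, ← mul_assoc]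
    refine ⟨((good_flipV _).comp (good_flipV _)).comp hg, ?_⟩
    rw [ev_mul ((good_flipV _).comp (good_flipV _)) hg, ev_pair, map_mul, e, map_mul, map_inv,
      hA x (hw x (by simp)), hA y (hw y (by simp)), mul_inv_rev, ← Fi24.g12_inv, ← Fi24.g12_inv,
      mul_assoc (g12 x), ← mul_assoc (g12 10), Fi24.g12_sq, one_mul]

theorem gword_flip_small {A : ℕ → Γ} : ∀ {w : List ℕ}, (∀ x ∈ w, (A x)⁻¹ = A x) → ∀ z b,
    gword (fun x => flipV (A x)) w (z, b) = (gword A w * z, Nat.bodd w.length ^^ b)
  | [], _, z, b => by simp [gword_nil]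
  | x :: w, hA, z, b => by
    rw [gword_cons, Equiv.Perm.mul_apply, gword_flip_small (fun y hy => hA y (by simp [hy])),
      gword_cons, List.length_cons, Nat.bodd_succ]
    have e : ∀ c, side (A x) c = A x := fun c => by cases c <;> simp [side, hA x (by simp)]
    show (side (A x) _ * (gword A w * z), !_) = _
    rw [e, mul_assoc, ← Bool.not_bne]

/-- the word moving `j` to `l` -/
def moveW : List ℕ := [11, 10, 0, 11, 1, 0, 2, 1, 3, 2, 4, 3, 5, 4, 6, 5, 9, 6]

/-- a letter moved along it -/
def movW (x : ℕ) : List ℕ := moveW ++ [x] ++ moveW.reverse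

/-- the letters commuting with `j` that are used -/
def X9 : List ℕ := [10, 11, 0, 1, 2, 3, 4, 5, 7]

theorem X9_lt {x : ℕ} (hx : x ∈ X9) : x < 12 := (show ∀ x ∈ X9, x < 12 by decide) x hx

theorem movW_lt {x : ℕ} (hx : x < 12) : ∀ y ∈ movW x, y < 12 := by
  intro y hy
  simp only [movW, List.mem_append, List.mem_reverse, List.mem_singleton] at hy
  rcases hy with (hy | hy) | hy
  exacts [(show ∀ y ∈ moveW, y < 12 by decide) y hy, hy ▸ hx,
    (show ∀ y ∈ moveW, y < 12 by decide) y hy]

theorem movW_check : X9.all (fun x => Nat.beq (runL (movW x) 0) 0) = true := by decide +kernel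

theorem gword_movW {G : Type*} [Group G] {v : ℕ → G} (hv : ∀ x, v x = (v x)⁻¹) (x : ℕ) :
    gword v (movW x) = gword v moveW * v x * (gword v moveW)⁻¹ := by
  rw [movW, wapp, wapp, wone, wrev hv]

theorem movW_pair {G : Type*} [Group G] {v : ℕ → G} (hv : ∀ x, v x = (v x)⁻¹) (x y : ℕ) :
    gword v (movW x) * gword v (movW y) = gword v moveW * (v x * v y) * (gword v moveW)⁻¹ := by
  rw [gword_movW hv, gword_movW hv]; group

variable (h : ChecksOK)
include h

theorem exists_moved {x : ℕ} (hx : x ∈ X9) :
    ∃ u, psi u = gword g12 (movW x) * g12 10 := by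
  have hm : gword g12 (movW x) ∈ Fi24.Hs :=
    (Fi24.mem_Hs_iff h).2 (Fin.ext (by
      rw [Fi24.act_val]; exact Nat.eq_of_beq_eq_true (List.all_eq_true.1 movW_check x hx)))
  obtain ⟨u, e | e⟩ := Fi24.mem_Hs_cases hm
  · exfalso
    have hp := congrArg parity e
    rw [Fi24.parity_psi, gword_map, gword_congr _ (fun _ => (-1 : ℤˣ)) fun y hy =>
      Fi24.parity_g12 (movW_lt (X9_lt hx) y hy)] at hp
    rw [gword, List.map_const', List.prod_replicate] at hp
    have hl : (movW x).length = 37 := by simp [movW, moveW]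
    rw [hl] at hp
    exact absurd hp (by decide)
  · exact ⟨u, by rw [e, mul_assoc, Fi24.g12_sq, mul_one]⟩

theorem psi_moved_pair {u v : Cfsg.Spor.Fi23} {x y : ℕ}
    (hu : psi u = gword g12 (movW x) * g12 10) (hv : psi v = gword g12 (movW y) * g12 10) :
    psi (u * v) = gword g12 (movW x) * gword g12 (movW y) := by
  have e : gword g12 (movW x) = psi u * g12 10 := by rw [hu, mul_assoc, Fi24.g12_sq, mul_one]
  have e' : gword g12 (movW y) = g12 10 * psi v := by
    rw [← Fi24.psi_commute_l, hv, mul_assoc, Fi24.g12_sq, mul_one]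
  rw [e, e', map_mul, mul_assoc, ← mul_assoc (g12 10), Fi24.g12_sq, one_mul]

variable (hcen : s0.ker ≤ Subgroup.center Γ) (τ : Cfsg.Spor.Fi23 →* Γ)
  (hτ : ∀ u, s0 (τ u) = psi u)
include hcen hτ

omit hcen in
theorem exact_of_image {u : Cfsg.Spor.Fi23} (e : s0 (τ u) = 1) : τ u = 1 := by
  rw [hτ] at e
  rw [Fi24.psi_inj h (e.trans (map_one psi).symm), map_one]

/-- the long relator has value 1 as soon as it is central -/
theorem long_trivial {A : ℕ → Γ} (hA : GoodLifts s0 A) {r : Γ} (hr : r ∈ Subgroup.center Γ)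
    (hlong : gword A (10 :: lW.reverse) = r) : r = 1 := by
  classical
  have hv : ∀ x, flipV (A x) = (flipV (A x))⁻¹ := fun x => (flipV_inv _).symm
  set V : ℕ → Equiv.Perm (Γ × Bool) := fun x => flipV (A x)
  set X : ℕ → Equiv.Perm (Γ × Bool) := fun x => gword V (movW x)
  have hu : ∀ x, ∃ u, x ∈ X9 → psi u = gword g12 (movW x) * g12 10 := fun x => by
    by_cases hx : x ∈ X9
    · obtain ⟨u, hu⟩ := exists_moved h hx
      exact ⟨u, fun _ => hu⟩
    · exact ⟨1, fun e => absurd e hx⟩
  choose u hu using hu
  have hlen : ∀ x y, (movW x ++ movW y).length % 2 = 0 := fun x y => by simp [movW, moveW]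
  have hlt : ∀ {x y}, x ∈ X9 → y ∈ X9 → ∀ z ∈ movW x ++ movW y, z < 12 := fun hx hy z hz =>
    (List.mem_append.1 hz).elim (movW_lt (X9_lt hx) z) (movW_lt (X9_lt hy) z)
  have hXX : ∀ x ∈ X9, ∀ y ∈ X9, Good (X x * X y) false ∧
      s0 (ev (X x * X y)) = psi (u x * u y) := fun x hx y hy => by
    have e := image_ev s0 hA.image (hlen x y) (hlt hx hy)
    rw [wapp, wapp g12, ← psi_moved_pair h (hu x hx) (hu y hy)] at e
    exact e
  have hXsq : ∀ x, X x * X x = 1 := fun x => by
    show gword V (movW x) * gword V (movW x) = 1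
    rw [movW_pair hv, flipV_sq, mul_one, mul_inv_cancel]
  have husq : ∀ x ∈ X9, u x * u x = 1 := fun x hx => Fi24.psi_inj h (by
    rw [psi_moved_pair h (hu x hx) (hu x hx), movW_pair Fi24.g12_inv, Fi24.g12_sq, mul_one,
      mul_inv_cancel, map_one])
  let δ : ℕ → ℕ → Γ := fun x y => ev (X x * X y) * (τ (u x * u y))⁻¹
  have hδc : ∀ x ∈ X9, ∀ y ∈ X9, δ x y ∈ Subgroup.center Γ := fun x hx y hy => hcen (by
    rw [MonoidHom.mem_ker, map_mul, map_inv, (hXX x hx y hy).2, hτ, mul_inv_cancel])
  have hpow : ∀ x ∈ X9, ∀ y ∈ X9, δ x y ^ lbl x y = 1 := fun x hx y hy => by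
    have hx' := X9_lt hx
    have hy' := X9_lt hy
    have ea : ev (X x * X y) ^ lbl x y = 1 := by
      rw [← (ev_pow (hXX x hx y hy).1 _).2]
      show ev ((gword V (movW x) * gword V (movW y)) ^ lbl x y) = 1
      rw [movW_pair hv, conj_pow, hA.vpair s0 hx' hy', mul_one, mul_inv_cancel, ev_one]
    have eq : τ (u x * u y) ^ lbl x y = 1 := by
      rw [← map_pow]
      refine exact_of_image s0 h τ hτ ?_
      rw [hτ, map_pow, psi_moved_pair h (hu x hx) (hu y hy), movW_pair Fi24.g12_inv, conj_pow,
        fi24_pair hx' hy', mul_one, mul_inv_cancel]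
    have k : Commute (δ x y) (τ (u x * u y)) := (Subgroup.mem_center_iff.1 (hδc x hx y hy) _).symm
    have e := k.mul_pow (lbl x y)
    rw [show δ x y * τ (u x * u y) = ev (X x * X y) from inv_mul_cancel_right _ _, ea, eq,
      mul_one] at e
    exact e.symm
  have htr : ∀ x ∈ X9, ∀ y ∈ X9, ∀ z ∈ X9, δ x z = δ x y * δ y z := fun x hx y hy z hz => by
    have e : X x * X z = (X x * X y) * (X y * X z) := by
      rw [mul_assoc, ← mul_assoc (X y), hXsq, one_mul]
    have e' : u x * u z = (u x * u y) * (u y * u z) := by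
      rw [mul_assoc, ← mul_assoc (u y), husq y hy, one_mul]
    show ev (X x * X z) * (τ (u x * u z))⁻¹ = δ x y * δ y z
    rw [e, ev_mul (hXX x hx y hy).1 (hXX y hy z hz).1, e', map_mul, mul_inv_rev]
    have k := Subgroup.mem_center_iff.1 (hδc y hy z hz)
    show _ = ev (X x * X y) * (τ (u x * u y))⁻¹ * δ y z
    rw [mul_assoc (ev (X x * X y)), mul_assoc (ev (X x * X y)), k]
    simp only [δ, mul_assoc]
  have hedge : ∀ x ∈ X9, ∀ y ∈ X9, ∀ w ∈ X9, lbl x y = 3 → lbl x w = 2 → lbl w y = 2 →
      δ x y = 1 := fun x hx y hy w hw hxy hxw hwy => by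
    have h3 := hpow x hx y hy
    have a2 := hpow x hx w hw
    have b2 := hpow w hw y hy
    rw [hxy] at h3; rw [hxw] at a2; rw [hwy] at b2
    have k : Commute (δ x w) (δ w y) := Subgroup.mem_center_iff.1 (hδc w hw y hy) _
    have h2 : δ x y ^ 2 = 1 := by rw [htr x hx w hw y hy, k.mul_pow, a2, b2, one_mul]
    rw [pow_succ, h2, one_mul] at h3
    exact h3
  have m : ∀ {x}, X9.contains x = true → x ∈ X9 := fun hx => List.contains_iff_mem.1 hx
  have step : ∀ {x y}, δ 10 x = 1 → X9.contains x = true → X9.contains y = true →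
      ∀ w, X9.contains w = true → lbl x y = 3 → lbl x w = 2 → lbl w y = 2 → δ 10 y = 1 :=
    fun {x y} hd hx hy w hw a b c => by
      rw [htr 10 (m (by decide)) x (m hx) y (m hy), hd, hedge x (m hx) y (m hy) w (m hw) a b c,
        one_mul]
  have d10 : δ 10 10 = 1 := by
    show ev (X 10 * X 10) * (τ (u 10 * u 10))⁻¹ = 1
    rw [hXsq, husq 10 (m (by decide)), map_one, ev_one, inv_one, one_mul]
  have d11 := step d10 (by decide) (show X9.contains 11 = true by decide) 1 (by decide) (by decide) (by decide) (by decide)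
  have d0 := step d11 (by decide) (show X9.contains 0 = true by decide) 2 (by decide) (by decide) (by decide) (by decide)
  have d1 := step d0 (by decide) (show X9.contains 1 = true by decide) 3 (by decide) (by decide) (by decide) (by decide)
  have d2 := step d1 (by decide) (show X9.contains 2 = true by decide) 4 (by decide) (by decide) (by decide) (by decide)
  have d3 := step d2 (by decide) (show X9.contains 3 = true by decide) 5 (by decide) (by decide) (by decide) (by decide)
  have d4 := step d3 (by decide) (show X9.contains 4 = true by decide) 0 (by decide) (by decide) (by decide) (by decide)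
  have d5 := step d4 (by decide) (show X9.contains 5 = true by decide) 0 (by decide) (by decide) (by decide) (by decide)
  have d7 := step d3 (by decide) (show X9.contains 7 = true by decide) 0 (by decide) (by decide) (by decide) (by decide)
  have hall : ∀ x ∈ X9, δ 10 x = 1 := fun x hx => by
    simp only [X9, List.mem_cons, List.not_mem_nil, or_false] at hx
    rcases hx with rfl | rfl | rfl | rfl | rfl | rfl | rfl | rfl | rfl
    exacts [d10, d11, d0, d1, d2, d3, d4, d5, d7]
  have hone : ∀ x ∈ X9, ∀ y ∈ X9, ev (X x * X y) = τ (u x * u y) := fun x hx y hy => by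
    have e := htr 10 (m (by decide)) x hx y hy
    rw [hall x hx, hall y hy, one_mul] at e
    exact mul_inv_eq_one.1 e.symm
  have main : ∀ {w : List ℕ}, w.length % 2 = 0 → (∀ x ∈ w, x ∈ X9) →
      Good (gword X w) false ∧ ev (gword X w) = τ (gword u w) ∧
        psi (gword u w) = gword g12 moveW * gword g12 w * (gword g12 moveW)⁻¹ := by
    intro w
    induction w using List.twoStepInduction with
    | nil =>
      intro _ _
      rw [gword_nil, gword_nil, gword_nil, map_one, map_one, mul_one, mul_inv_cancel]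
      exact ⟨good_one, ev_one, rfl⟩
    | singleton x => intro hw; simp at hw
    | cons_cons x y w ih _ =>
      intro hw hm
      obtain ⟨hg, e1, e2⟩ := ih (by simp only [List.length_cons] at hw; omega)
        fun z hz => hm z (by simp [hz])
      have hx := hm x (by simp)
      have hy := hm y (by simp)
      simp only [gword_cons, ← mul_assoc]
      refine ⟨(hXX x hx y hy).1.comp hg, ?_, ?_⟩
      · rw [ev_mul (hXX x hx y hy).1 hg, hone x hx y hy, e1, ← map_mul]
      · rw [map_mul, psi_moved_pair h (hu x hx) (hu y hy), e2, movW_pair Fi24.g12_inv]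
        group
  have hR : ∀ x ∈ 10 :: lW.reverse, x ∈ X9 := by decide +kernel
  have hRl : (10 :: lW.reverse).length % 2 = 0 := by decide +kernel
  have hRA : ∀ x ∈ 10 :: lW.reverse, (A x)⁻¹ = A x := fun x hx =>
    hA.invol x ((show ∀ x ∈ 10 :: lW.reverse, x < 11 by decide +kernel) x hx)
  obtain ⟨-, e1, e2⟩ := main hRl hR
  have hlrel : gword g12 (10 :: lW.reverse) = 1 := Fi24.gword_relW _ (List.contains_iff_mem.1
    (Bool.and_eq_true _ _ ▸ Fi24.relW_contains_long).1)
  rw [hlrel, mul_one, mul_inv_cancel] at e2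
  rw [Fi24.psi_inj h (e2.trans (map_one psi).symm), map_one] at e1
  have hcomm : gword X (10 :: lW.reverse) = gword V (10 :: lW.reverse) := by
    have ec : ∀ w, gword X w = gword V moveW * gword V w * (gword V moveW)⁻¹ := fun w => by
      induction w with
      | nil => rw [gword_nil, gword_nil, mul_one, mul_inv_cancel]
      | cons x w ih =>
        rw [gword_cons, gword_cons, ih]
        show gword V (movW x) * _ = _
        rw [show gword V (movW x) = gword V moveW * V x * (gword V moveW)⁻¹ from gword_movW hv x]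
        group
    rw [ec]
    have hz : gword V moveW ∈ Subgroup.centralizer ({gword V (10 :: lW.reverse)} : Set _) :=
      gword_mem _ _ fun x _ => Subgroup.mem_centralizer_iff.2 fun q hq => by
        rw [Set.mem_singleton_iff.1 hq]
        refine Equiv.ext fun p => ?_
        rcases p with ⟨z, b⟩
        rw [Equiv.Perm.mul_apply, Equiv.Perm.mul_apply]
        show gword V _ (side (A x) b * z, !b) = _
        rw [gword_flip_small hRA, gword_flip_small hRA, hlong]
        show (r * (side (A x) b * z), _ ^^ !b) = (side (A x) (_ ^^ b) * (r * z), !(_ ^^ b))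
        rw [show Nat.bodd (10 :: lW.reverse).length = false by decide +kernel, Bool.false_xor, Bool.false_xor, ← mul_assoc,
          ← Subgroup.mem_center_iff.1 hr, mul_assoc]
    rw [← Subgroup.mem_centralizer_iff.1 hz _ rfl, mul_inv_cancel_right]
  rw [hcomm] at e1
  show r = 1
  rw [← e1]
  show r = (gword V (10 :: lW.reverse) (1, false)).1
  rw [gword_flip_small hRA, hlong, mul_one]

end CfsgLib.Fi24Mult30
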