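import Cfsg.Agent.Fi24Mult30.Lift

/-!
Exact lifts of the letters in a central extension of the even part of Fi24, and the map they give on
the even part of the presentation.
-/

set_option autoImplicit false
set_option maxRecDepth 8000

namespace CfsgLib.Fi24Mult30

open CfsgLib.CosetEnum
open CfsgLib.CosetEnum.Fi24 (g12 relW lW lbl psi parity ChecksOK wrev wone wapp cW)

variable {Γ : Type} [Group Γ] (s0 : Γ →* Cfsg.Spor.Fi24) (h : ChecksOK)
  (hcen : s0.ker ≤ Subgroup.center Γ) (hev : ∀ a, parity a = 1 → ∃ γ, s0 γ = a)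

theorem sandwich {r : Γ} (hr : r * r = 1) (hc : ∀ z, Commute r z) (a b : Γ) :
    r * a * (b * r) = a * b := by
  rw [← (hc b).eq, ← mul_assoc, mul_assoc r a r, ← (hc a).eq, ← mul_assoc r r, hr, one_mul]

theorem sandwich' {r : Γ} (hr : r * r = 1) (hc : ∀ z, Commute r z) (a b : Γ) :
    r * a * (r * b) = a * b := by
  rw [(hc b).eq]; exact sandwich hr hc a b

include h hcen hev in
theorem exists_tau : ∃ τ : Cfsg.Spor.Fi23 →* Γ, ∀ u, s0 (τ u) = psi u := by
  set E : Subgroup Γ := psi.range.comap s0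
  let e : Cfsg.Spor.Fi23 ≃* psi.range := MonoidHom.ofInjective (Fi24.psi_inj h)
  let σE : E →* Cfsg.Spor.Fi23 := e.symm.toMonoidHom.comp (s0.subgroupComap psi.range)
  have hs : Function.Surjective σE := fun u => by
    obtain ⟨γ, hγ⟩ := hev (psi u) (Fi24.parity_psi u)
    refine ⟨⟨γ, ⟨u, hγ.symm⟩⟩, ?_⟩
    show e.symm _ = u
    rw [MulEquiv.symm_apply_eq]
    exact Subtype.ext hγ
  have hc : σE.ker ≤ Subgroup.center E := fun γ hγ => by
    rw [Subgroup.mem_center_iff]
    intro δ
    have e1 : s0.subgroupComap psi.range γ = 1 := by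
      have h1 : e.symm (s0.subgroupComap psi.range γ) = 1 := hγ
      rwa [map_eq_one_iff _ e.symm.injective] at h1
    exact Subtype.ext (Subgroup.mem_center_iff.1
      (hcen (MonoidHom.mem_ker.2 (congrArg Subtype.val e1))) δ)
  obtain ⟨τE, hτ⟩ := Fi23Mult.exists_section σE hs hc
  refine ⟨E.subtype.comp τE, fun u => ?_⟩
  have e1 : e.symm (s0.subgroupComap psi.range (τE u)) = u := DFunLike.congr_fun hτ u
  rw [MulEquiv.symm_apply_eq] at e1
  exact congrArg Subtype.val e1

theorem lbl_table : ∀ x < 12, ∀ y < 12, lbl x y = lbl y x ∧ (lbl x x = 1) := by decide +kernel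

theorem lbl_k : lbl 11 10 = 3 ∧ lbl 11 0 = 3 ∧ ∀ d ∈ [1, 2, 3, 4, 5, 6, 7, 8, 9], lbl 11 d = 2 := by
  decide +kernel

theorem edge_facts : [((1, 2), 6), ((2, 3), 6), ((3, 4), 6), ((3, 7), 6), ((4, 5), 8), ((5, 6), 8),
    ((6, 9), 8), ((7, 8), 6)].all (fun p => lbl p.1.1 p.1.2 == 3 && lbl p.1.1 p.2 == 2 &&
      lbl p.1.2 p.2 == 2) = true := by
  decide +kernel

include h hcen hev in
/-- lifts of all letters with all pair relations and the long relator -/
theorem exists_good : ∃ A : ℕ → Γ, GoodLifts s0 A ∧ gword A (10 :: lW.reverse) = 1 := by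
  obtain ⟨τ, hτ⟩ := exists_tau s0 h hcen hev
  set Y : ℕ → Γ := fun x => τ (Fi23.g10 x)
  have hY : ∀ x, x < 10 → s0 (Y x) = g12 x * g12 10 := fun x hx => by
    show s0 (τ _) = _
    rw [hτ, Fi24.psi_gen hx]; rfl
  have hYi : ∀ x, (Y x)⁻¹ = Y x := fun x => by
    show (τ _)⁻¹ = τ _
    rw [← map_inv, ← Fi23.g10_inv]
  have hYs : ∀ x, Y x * Y x = 1 := fun x => by
    nth_rewrite 2 [← hYi x]
    rw [mul_inv_cancel]
  have hYpair : ∀ x, x < 10 → ∀ y, y < 10 → (Y x * Y y) ^ lbl x y = 1 := fun x hx y hy => by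
    show (τ _ * τ _) ^ _ = 1
    rw [← map_mul, ← map_pow]
    refine exact_of_image s0 h τ hτ ?_
    rw [hτ, map_pow, map_mul, Fi24.psi_gen hx, Fi24.psi_gen hy]
    have e : Fi24.psiVal x * Fi24.psiVal y = g12 x * g12 y := by
      rw [Fi24.psiVal, Fi24.psiVal, Fi24.commute_l hy, mul_assoc, ← mul_assoc (g12 10),
        Fi24.g12_sq, one_mul]
    rw [e, fi24_pair (by omega) (by omega)]
  have hcomm : ∀ {x y}, x < 10 → y < 10 → lbl x y = 2 → Y x * Y y = Y y * Y x := fun {x y} hx hy e => by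
    have e2 := hYpair x hx y hy
    rw [e, pow_two] at e2
    have := eq_inv_of_mul_eq_one_left e2
    rwa [mul_inv_rev, hYi, hYi] at this
  have hbraid : ∀ {x y}, x < 10 → y < 10 → lbl x y = 3 → Y x * Y y * Y x = Y y * Y x * Y y :=
    fun {x y} hx hy e => by
      have e2 := hYpair x hx y hy
      rw [e, pow_succ, pow_two] at e2
      have : (Y x * Y y * Y x) * (Y y * Y x * Y y) = 1 := by simpa only [mul_assoc] using e2
      have e3 := eq_inv_of_mul_eq_one_left this
      rwa [mul_inv_rev, mul_inv_rev, hYi, hYi, ← mul_assoc] at e3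
  obtain ⟨U0, hU0⟩ := hev (g12 11 * g12 10)
    (by rw [map_mul, Fi24.parity_g12 (by omega), Fi24.parity_g12 (by omega)]; rfl)
  have kd : ∀ d < 10, g12 11 * g12 10 * (g12 d * g12 10) = g12 11 * g12 d := fun d hd => by
    rw [Fi24.commute_l hd, mul_assoc, ← mul_assoc (g12 10), Fi24.g12_sq, one_mul]
  set c : ℕ → Γ := fun d => (U0 * Y d) * (U0 * Y d)
  have hD : ∀ {d}, d ∈ [1, 2, 3, 4, 5, 6, 7, 8, 9] → d < 10 :=
    fun {d} hd => (show ∀ d ∈ [1, 2, 3, 4, 5, 6, 7, 8, 9], d < 10 by decide) d hd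
  have hcc : ∀ d ∈ [1, 2, 3, 4, 5, 6, 7, 8, 9], c d ∈ Subgroup.center Γ := fun d hd => hcen (by
    rw [MonoidHom.mem_ker, map_mul, map_mul, hU0, hY d (hD hd), kd d (hD hd), ← pow_two,
      ← lbl_k.2.2 d hd, fi24_pair (by omega) (by have := hD hd; omega)])
  have hconj : ∀ d ∈ [1, 2, 3, 4, 5, 6, 7, 8, 9], Y d * U0 * Y d = c d * U0⁻¹ := fun d hd =>
    conj_of_sq (hYs d) rfl (hcc d hd)
  have hE : ∀ {d e f}, ((d, e), f) ∈ [((1, 2), 6), ((2, 3), 6), ((3, 4), 6), ((3, 7), 6),
      ((4, 5), 8), ((5, 6), 8), ((6, 9), 8), ((7, 8), 6)] →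
      d ∈ [1, 2, 3, 4, 5, 6, 7, 8, 9] → e ∈ [1, 2, 3, 4, 5, 6, 7, 8, 9] →
      f ∈ [1, 2, 3, 4, 5, 6, 7, 8, 9] → c d = c e := fun {d e f} hm hd he hf => by
    have hl := List.all_eq_true.1 edge_facts _ hm
    simp only [Bool.and_eq_true, beq_iff_eq] at hl
    obtain ⟨⟨hde, hdf⟩, hef⟩ := hl
    have h3 := cube_eq (hYs d) (hYs e) (hbraid (hD hd) (hD he) hde) (hcc d hd) (hcc e he)
      (hconj d hd) (hconj e he)
    have h2 := sq_eq (hYs d) (hYs f) (hcomm (hD hd) (hD hf) hdf) (hcc d hd) (hcc f hf)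
      (hconj d hd) (hconj f hf)
    have h2' := sq_eq (hYs e) (hYs f) (hcomm (hD he) (hD hf) hef) (hcc e he) (hcc f hf)
      (hconj e he) (hconj f hf)
    exact eq_of_sq_cube (Subgroup.mem_center_iff.1 (hcc e he) _) (h2.trans h2'.symm) h3
  have e12 := hE (d := 1) (e := 2) (f := 6) (by decide) (by decide) (by decide) (by decide)
  have e23 := hE (d := 2) (e := 3) (f := 6) (by decide) (by decide) (by decide) (by decide)
  have e34 := hE (d := 3) (e := 4) (f := 6) (by decide) (by decide) (by decide) (by decide)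
  have e37 := hE (d := 3) (e := 7) (f := 6) (by decide) (by decide) (by decide) (by decide)
  have e45 := hE (d := 4) (e := 5) (f := 8) (by decide) (by decide) (by decide) (by decide)
  have e56 := hE (d := 5) (e := 6) (f := 8) (by decide) (by decide) (by decide) (by decide)
  have e69 := hE (d := 6) (e := 9) (f := 8) (by decide) (by decide) (by decide) (by decide)
  have e78 := hE (d := 7) (e := 8) (f := 6) (by decide) (by decide) (by decide) (by decide)
  have hall : ∀ d ∈ [1, 2, 3, 4, 5, 6, 7, 8, 9], c d = c 1 := by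
    intro d hd
    simp only [List.mem_cons, List.not_mem_nil, or_false] at hd
    have a3 := (e12.trans e23).symm
    have a4 := e34.symm.trans a3
    have a5 := e45.symm.trans a4
    have a6 := e56.symm.trans a5
    have a7 := e37.symm.trans a3
    rcases hd with rfl | rfl | rfl | rfl | rfl | rfl | rfl | rfl | rfl
    exacts [rfl, e12.symm, a3, a4, a5, a6, a7, e78.symm.trans a7, e69.symm.trans a6]
  set c0 := U0 * U0 * U0
  have hc0 : c0 ∈ Subgroup.center Γ := hcen (by
    rw [MonoidHom.mem_ker, map_mul, map_mul, hU0, ← pow_two, ← pow_succ, show (2:ℕ) + 1 = 3 from rfl, ← lbl_k.1,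
      fi24_pair (by omega) (by omega)])
  have hc1 := hcc 1 (by decide)
  obtain ⟨h00, hU3⟩ := rescale (hYs 1) hc1 hc0 rfl (hconj 1 (by decide))
  set U := c 1 * c0⁻¹ * U0
  have hUimg : s0 U = g12 11 * g12 10 := by
    have k1 : s0 (c 1) = 1 := by
      show s0 ((U0 * Y 1) * (U0 * Y 1)) = 1
      rw [map_mul, map_mul, hU0, hY 1 (by omega), kd 1 (by omega), ← pow_two,
        ← lbl_k.2.2 1 (by decide), fi24_pair (by omega) (by omega)]
    have k2 : s0 c0 = 1 := by
      show s0 (U0 * U0 * U0) = 1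
      rw [map_mul, map_mul, hU0, ← pow_two, ← pow_succ, show (2:ℕ) + 1 = 3 from rfl, ← lbl_k.1, fi24_pair (by omega) (by omega)]
    rw [map_mul, map_mul, map_inv, k1, k2, inv_one, one_mul, one_mul, hU0]
  have hUY : ∀ d ∈ [1, 2, 3, 4, 5, 6, 7, 8, 9], (U * Y d) * (U * Y d) = 1 := fun d hd => by
    have e := rescale_conj (hYs d) hc1 hc0 h00 (by rw [hconj d hd, hall d hd])
    rw [mul_assoc, ← mul_assoc (Y d), e, mul_inv_cancel]
  set r := (U * Y 0) * (U * Y 0) * (U * Y 0)
  have hrc : r ∈ Subgroup.center Γ := hcen (by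
    rw [MonoidHom.mem_ker, map_mul, map_mul, map_mul, hUimg, hY 0 (by omega), kd 0 (by omega),
      ← pow_two, ← pow_succ, show (2:ℕ) + 1 = 3 from rfl, ← lbl_k.2.1, fi24_pair (by omega) (by omega)])
  have hr2 : r * r = 1 := by
    have e := rescale_conj (hYs 2) hc1 hc0 h00 (by rw [hconj 2 (by decide), hall 2 (by decide)])
    have k : Y 2 * Y 0 * Y 2 = Y 0 := by
      rw [hcomm (show 2 < 10 by omega) (show 0 < 10 by omega) (by decide +kernel), mul_assoc, hYs,
        mul_one]
    have e1 : r = (U⁻¹ * Y 0) * (U⁻¹ * Y 0) * (U⁻¹ * Y 0) := by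
      rw [← conj_center (hYs 2) hrc]
      show Y 2 * ((U * Y 0) * (U * Y 0) * (U * Y 0)) * Y 2 = _
      simp only [conj_mul (hYs 2), k]
      rw [e]
    have e2 : (U⁻¹ * Y 0) * (U⁻¹ * Y 0) * (U⁻¹ * Y 0) = r⁻¹ := by
      have e3 : Y 0 * r⁻¹ * Y 0 = r⁻¹ := conj_center (hYs 0) (inv_mem hrc)
      rw [← e3]
      show _ = Y 0 * ((U * Y 0) * (U * Y 0) * (U * Y 0))⁻¹ * Y 0
      simp only [mul_inv_rev, hYi, mul_assoc]
      rw [← mul_assoc (Y 0) (Y 0), hYs, one_mul]
    have e4 : r = r⁻¹ := e1.trans e2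
    nth_rewrite 2 [e4]
    exact mul_inv_cancel r
  set A := letA (fun x => r * Y x) U
  have hAlt : ∀ x, x < 10 → A x = r * Y x := fun x hx => if_pos hx
  have hA10 : A 10 = 1 := rfl
  have hA11 : A 11 = U := rfl
  have hri : r⁻¹ = r := inv_eq_of_mul_eq_one_right hr2
  have hrY : ∀ z, Commute r z := fun z => (Subgroup.mem_center_iff.1 hrc z).symm
  have hpairA : ∀ x < 12, ∀ y < 12, y ≤ x → (A x * (A y)⁻¹) ^ lbl x y = 1 := by
    intro x hx y hy hyx
    by_cases hx10 : x < 10
    · rw [hAlt x hx10, hAlt y (by omega), mul_inv_rev, hYi, hri,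
        sandwich hr2 hrY]
      exact hYpair x hx10 y (by omega)
    rcases (show x = 10 ∨ x = 11 by omega) with rfl | rfl
    · by_cases hy10 : y < 10
      · have hl : lbl 10 y = 2 := (show ∀ y < 10, lbl 10 y = 2 by decide +kernel) y hy10
        rw [hA10, hAlt y hy10, hl, one_mul, inv_pow, inv_eq_one, (hrY _).mul_pow, pow_two, pow_two,
          hr2, hYs, one_mul]
      · obtain rfl : y = 10 := by omega
        rw [mul_inv_cancel, one_pow]
    · by_cases hy0 : y = 0
      · subst hy0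
        rw [hA11, hAlt 0 (by omega), lbl_k.2.1, mul_inv_rev, hYi, hri, ← mul_assoc,
          (hrY (U * Y 0)).symm.mul_pow, pow_succ, pow_two, pow_succ, pow_two]
        show r * (r * r * r) = 1
        rw [hr2, one_mul, hr2]
      by_cases hy10 : y < 10
      · have hmem : y ∈ [1, 2, 3, 4, 5, 6, 7, 8, 9] := by simp; omega
        rw [hA11, hAlt y hy10, lbl_k.2.2 y hmem, mul_inv_rev, hYi, hri, ← mul_assoc,
          (hrY (U * Y y)).symm.mul_pow, pow_two, pow_two, hUY y hmem, hr2, one_mul]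
      rcases (show y = 10 ∨ y = 11 by omega) with rfl | rfl
      · rw [hA11, hA10, inv_one, mul_one, lbl_k.1, pow_succ, pow_two, hU3]
      · rw [mul_inv_cancel, one_pow]
  have hgood : GoodLifts s0 A := by
    refine ⟨fun x hx => ?_, fun x hx y hy => ?_, fun x hx => ?_⟩
    · rcases (show x < 10 ∨ x = 10 ∨ x = 11 by omega) with h10 | rfl | rfl
      · rw [hAlt x h10, map_mul, hY x h10]
        have : s0 r = 1 := by
          show s0 ((U * Y 0) * (U * Y 0) * (U * Y 0)) = 1
          rw [map_mul, map_mul, map_mul, hUimg, hY 0 (by omega), kd 0 (by omega), ← pow_two,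
            ← pow_succ, show (2:ℕ) + 1 = 3 from rfl, ← lbl_k.2.1, fi24_pair (by omega) (by omega)]
        rw [this, one_mul]
      · rw [hA10, map_one, Fi24.g12_sq]
      · rw [hA11, hUimg]
    · rcases Nat.le_total y x with hle | hle
      · exact hpairA x hx y hy hle
      · have e := hpairA y hy x hx hle
        rw [(lbl_table x hx y hy).1, show A x * (A y)⁻¹ = (A y * (A x)⁻¹)⁻¹ by
          rw [mul_inv_rev, inv_inv], inv_pow, e, inv_one]
    · rcases (show x < 10 ∨ x = 10 by omega) with h10 | rfl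
      · rw [hAlt x h10, mul_inv_rev, hYi, hri, (hrY _).eq]
      · rw [hA10, inv_one]
  have hval : ∀ {w : List ℕ}, (∀ x ∈ w, x < 10) →
      gword A w = (bif Nat.bodd w.length then r else 1) * τ (gword Fi23.g10 w) := by
    intro w
    induction w with
    | nil => intro _; simp [gword_nil]
    | cons x w ih =>
      intro hw
      rw [gword_cons, gword_cons, hAlt x (hw x (by simp)), ih fun y hy => hw y (by simp [hy]),
        List.length_cons, Nat.bodd_succ, map_mul]
      cases Nat.bodd w.length <;>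
        simp only [Bool.not_false, Bool.not_true, cond_true, cond_false]
      · rw [one_mul, mul_assoc]
      · rw [one_mul, sandwich' hr2 hrY]
  have hw : ∀ x ∈ lW.reverse, x < 10 := by decide +kernel
  have hlong : gword A (10 :: lW.reverse) = r := by
    have hl : τ (gword Fi23.g10 lW.reverse) = 1 := by
      refine exact_of_image s0 h τ hτ ?_
      rw [hτ, Fi24.psi_gword hw]
      have e := Fi24.gword_relW _ (List.contains_iff_mem.1
        (Bool.and_eq_true _ _ ▸ Fi24.relW_contains_long).1)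
      rw [gword_cons] at e
      rw [eq_inv_of_mul_eq_one_right e, ← Fi24.g12_inv, ← pow_succ',
        show lW.reverse.length + 1 = 2 * 32 by decide +kernel, pow_mul, pow_two, Fi24.g12_sq,
        one_pow]
    rw [gword_cons, hA10, one_mul, hval hw, hl, mul_one,
      show Nat.bodd lW.reverse.length = true by decide +kernel]
    rfl
  exact ⟨A, hgood, by rw [hlong, long_trivial s0 h hcen τ hτ hgood hrc hlong]⟩

theorem exists_word (a : Pre) : ∃ w : List ℕ, (∀ x ∈ w, x < 12) ∧ gword p12 w = a := by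
  have ha : a ∈ Subgroup.closure {a | ∃ x < 12, p12 x = a} := closure_p12 ▸ Subgroup.mem_top a
  induction ha using Subgroup.closure_induction_left with
  | one => exact ⟨[], by simp, gword_nil _⟩
  | mul_left x hx y _ hy =>
    obtain ⟨n, hn, rfl⟩ := hx
    obtain ⟨w, hw, rfl⟩ := hy
    exact ⟨n :: w, fun z hz => (List.mem_cons.1 hz).elim (fun e => e ▸ hn) (hw z), gword_cons _ _ _⟩
  | inv_mul_cancel x hx y _ hy =>
    obtain ⟨n, hn, rfl⟩ := hx
    obtain ⟨w, hw, rfl⟩ := hy
    rw [← p12_inv]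
    exact ⟨n :: w, fun z hz => (List.mem_cons.1 hz).elim (fun e => e ▸ hn) (hw z), gword_cons _ _ _⟩

theorem word_even {a : Pre} (ha : preParity a = 1) {w : List ℕ} (hw : ∀ x ∈ w, x < 12)
    (e : gword p12 w = a) : w.length % 2 = 0 := by
  rw [← e, gword_map, gword_congr _ (fun _ => (-1 : ℤˣ)) fun x hx => preParity_p12 (hw x hx),
    gword, List.map_const', List.prod_replicate] at ha
  rcases Nat.mod_two_eq_zero_or_one w.length with h2 | h2
  · exact h2
  · rw [(Nat.odd_iff.2 h2).neg_one_pow] at ha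
    exact absurd ha (by decide)

include h hcen hev in
/-- the even part of the presentation maps into the extension, over Fi24 -/
theorem exists_phi : ∃ Φ : preParity.ker →* Γ, ∀ a, s0 (Φ a) = toFi24 a := by
  obtain ⟨A, hA, hlong⟩ := exists_good s0 h hcen hev
  set V : ℕ → Equiv.Perm (Γ × Bool) := fun x => flipV (A x)
  have hv : ∀ x, V x = (V x)⁻¹ := fun x => (flipV_inv _).symm
  have hrel : ∀ w ∈ preW, gword V w = 1 := by
    intro w hw
    have hf := List.all_eq_true.1 Fi24.relW_forms w (preW_mem hw)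
    simp only [Bool.or_eq_true, List.any_eq_true, List.mem_range, beq_iff_eq] at hf
    rcases hf with (⟨x, hx, y, hy, rfl⟩ | rfl) | rfl
    · rw [Fi24.gword_replicate, gword_cons, wone]
      exact hA.vpair s0 hx hy
    · have hs : ∀ x ∈ 10 :: lW.reverse, (A x)⁻¹ = A x := fun x hx =>
        hA.invol x ((show ∀ x ∈ 10 :: lW.reverse, x < 11 by decide +kernel) x hx)
      refine Equiv.ext fun p => ?_
      rcases p with ⟨z, b⟩
      rw [gword_flip_small hs, hlong, one_mul, Equiv.Perm.one_apply,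
        show Nat.bodd (10 :: lW.reverse).length = false by decide +kernel, Bool.false_xor]
    · exact absurd (List.contains_iff_mem.2 hw)
        (show ¬ preW.contains cW = true by decide +kernel)
  set f := preLift V hv hrel
  have hf : ∀ w, (∀ x ∈ w, x < 12) → f (gword p12 w) = gword V w := fun w hw => by
    rw [gword_map]
    exact gword_congr _ _ fun x hx => preLift_p12 _ _ _ (hw x hx)
  have key : ∀ a : preParity.ker, Good (f a) false ∧ s0 (ev (f a)) = toFi24 a := by
    rintro ⟨a, ha⟩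
    obtain ⟨w, hw, rfl⟩ := exists_word a
    show Good (f (gword p12 w)) false ∧ s0 (ev (f (gword p12 w))) = toFi24 (gword p12 w)
    rw [hf w hw, toFi24_gword]
    exact image_ev s0 hA.image (word_even ha hw rfl) hw
  refine ⟨MonoidHom.mk' (fun a => ev (f a)) fun a b => ?_, fun a => (key a).2⟩
  show ev (f ((a : Pre) * b)) = _
  rw [map_mul, ev_mul (key a).1 (key b).1]

end CfsgLib.Fi24Mult30
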