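import Cfsg.Agent.Fi24Mult30.Cocycle
import Cfsg.Agent.Fi24Mult30.Normal
import Cfsg.Agent.CosetEnum.Fi24.Simple
import Cfsg.Agent.Eq.Def_KGroupFacts

/-!
The Schur multiplier of the simple Fischer group Fi24', given one group in which the dropped relator
is nontrivial and commutes with the images of all even elements.
-/

set_option autoImplicit false
set_option maxRecDepth 8000

namespace CfsgLib.Fi24Mult30

open CfsgLib.CosetEnum
open CfsgLib.CosetEnum.Fi24 (ChecksOK)
open scoped commutatorElement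

theorem cov_mk_zpow {h : ChecksOK} {n : Pre} (hn : toFi24 n = 1) :
    ∃ i : ℤ, n * (zRel ^ i)⁻¹ ∈ Com0 := by
  obtain ⟨hm, -⟩ := mem_zpowers_of_proj h (n := QuotientGroup.mk' Com0 n) hn
  obtain ⟨i, hi⟩ := Subgroup.mem_zpowers_iff.1 hm
  refine ⟨i, (QuotientGroup.eq_one_iff _).1 ?_⟩
  show QuotientGroup.mk' Com0 (n * (zRel ^ i)⁻¹) = 1
  rw [map_mul, map_inv, map_zpow, ← Zc_eq, hi, mul_inv_cancel]

theorem zRel_cube (h : ChecksOK) : zRel ^ 3 ∈ Com0 := by
  obtain ⟨-, h3⟩ := mem_zpowers_of_proj h (n := (1 : Cov)) (map_one _)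
  refine (QuotientGroup.eq_one_iff _).1 ?_
  show QuotientGroup.mk' Com0 (zRel ^ 3) = 1
  rw [map_pow, ← Zc_eq, h3]

theorem zRel_even : zRel ∈ preParity.ker := by
  rw [MonoidHom.mem_ker, ← parity_toFi24, zRel, toFi24_gword, Fi24.gword_cW, map_one]

/-- the cyclic upper bound -/
theorem exists_surj (h : ChecksOK) (Γ : Type) [Group Γ] (σ : Γ →* Cfsg.Spor.Fi24')
    (hσ : Cfsg.IsStemExtension σ) :
    ∃ π : Multiplicative (ZMod 3) →* σ.ker, Function.Surjective π := by
  let s0 : Γ →* Cfsg.Spor.Fi24 := (commutator Cfsg.Spor.Fi24).subtype.comp σ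
  have hker : s0.ker = σ.ker := by
    ext γ
    rw [MonoidHom.mem_ker, MonoidHom.mem_ker]
    exact ⟨fun e => Subtype.ext e, fun e => congrArg Subtype.val e⟩
  have hev : ∀ a, Fi24.parity a = 1 → ∃ γ, s0 γ = a := fun a ha => by
    have hm : a ∈ commutator Cfsg.Spor.Fi24 := by rw [Fi24.commutator_eq]; exact ha
    obtain ⟨γ, hγ⟩ := hσ.1 ⟨a, hm⟩
    exact ⟨γ, congrArg Subtype.val hγ⟩
  have hcen : s0.ker ≤ Subgroup.center Γ := hker ▸ hσ.2.1
  obtain ⟨Φ, hΦ⟩ := exists_phi s0 h hcen hev
  have hcom : Com0.subgroupOf preParity.ker ≤ Φ.ker := by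
    rintro ⟨c, hc⟩ hmem
    have hle : Com0 ≤ Φ.ker.map preParity.ker.subtype := by
      rw [Com0, Subgroup.commutator_le]
      intro n hn a ha
      have hn' : n ∈ preParity.ker := by
        rw [MonoidHom.mem_ker, ← parity_toFi24, show toFi24 n = 1 from hn, map_one]
      refine ⟨⁅(⟨n, hn'⟩ : preParity.ker), ⟨a, ha⟩⁆, ?_, rfl⟩
      have hz : Φ ⟨n, hn'⟩ ∈ Subgroup.center Γ := hcen (by
        rw [MonoidHom.mem_ker, hΦ]; exact hn)
      show Φ ⁅_, _⁆ = 1
      rw [map_commutatorElement, commutatorElement_eq_one_iff_mul_comm,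
        Subgroup.mem_center_iff.1 hz]
    obtain ⟨d, hd, e⟩ := hle hmem
    rwa [show d = ⟨c, hc⟩ from Subtype.ext e] at hd
  set z : preParity.ker := ⟨zRel, zRel_even⟩
  have hzk : Φ z ∈ σ.ker := by
    rw [← hker, MonoidHom.mem_ker, hΦ]
    exact (toFi24_gword _).trans Fi24.gword_cW
  have hz3 : Φ z ^ 3 = 1 := by
    rw [← map_pow]; exact hcom (show (z ^ 3).1 ∈ Com0 from zRel_cube h)
  have hsplit : ∀ γ, ∃ a, Φ a⁻¹ * γ ∈ σ.ker := fun γ => by
    have hp : Fi24.parity (s0 γ) = 1 :=
      MonoidHom.mem_ker.1 (Fi24.commutator_eq ▸ (σ γ).2)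
    obtain ⟨w, hw, e⟩ : ∃ a : Pre, toFi24 a = s0 γ ∧ preParity a = 1 := by
      have hsur : Function.Surjective toFi24 := by
        intro b
        have hb : b ∈ toFi24.range := by
          have hle : (⊤ : Subgroup Cfsg.Spor.Fi24) ≤ toFi24.range := by
            rw [← Fi24.closure_g12, Subgroup.closure_le]
            rintro _ ⟨x, -, rfl⟩
            exact ⟨p12 x, toFi24_p12 x⟩
          exact hle (Subgroup.mem_top b)
        exact hb
      obtain ⟨a, ha⟩ := hsur (s0 γ)
      exact ⟨a, ha, by rw [← parity_toFi24, ha, hp]⟩ 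
    refine ⟨⟨w, e⟩, hker ▸ ?_⟩
    rw [MonoidHom.mem_ker, map_mul, map_inv, map_inv, hΦ, hw, inv_mul_cancel]
  have hrange : commutator Γ ≤ Φ.range := by
    rw [commutator_def, Subgroup.commutator_le]
    intro a _ b _
    obtain ⟨p, hp⟩ := hsplit a
    obtain ⟨q, hq⟩ := hsplit b
    rw [← mul_inv_cancel_left (Φ p) a, ← mul_inv_cancel_left (Φ q) b, ← map_inv, ← map_inv,
      Subgroup.mem_center_iff.1 (hσ.2.1 hp) (Φ p), Subgroup.mem_center_iff.1 (hσ.2.1 hq) (Φ q),
      Schur.ThreeGroups.commutator_mul_central_left (hσ.2.1 hp),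
      Schur.ThreeGroups.commutator_mul_central_right (hσ.2.1 hq), ← map_commutatorElement]
    exact ⟨_, rfl⟩
  refine ⟨AddMonoidHom.toMultiplicativeLeft
    (ZMod.lift 3 ⟨zmultiplesHom _ (Additive.ofMul (⟨Φ z, hzk⟩ : σ.ker)), ?_⟩), ?_⟩
  · show (3 : ℤ) • Additive.ofMul (⟨Φ z, hzk⟩ : σ.ker) = 0
    rw [← ofMul_zpow]
    exact congrArg Additive.ofMul (Subtype.ext (by
      rw [SubgroupClass.coe_zpow, zpow_ofNat]; exact hz3))
  · rintro ⟨k, hk⟩
    obtain ⟨a, rfl⟩ := hrange (hσ.2.2 hk)
    have ha : toFi24 (a : Pre) = 1 := by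
      rw [← hΦ]; exact MonoidHom.mem_ker.1 (hker ▸ hk)
    obtain ⟨i, hi⟩ := cov_mk_zpow (h := h) ha
    refine ⟨Multiplicative.ofAdd (i : ZMod 3), Subtype.ext ?_⟩
    have e : Φ (a * (z ^ i)⁻¹) = 1 := hcom (by
      show ((a * (z ^ i)⁻¹ : preParity.ker) : Pre) ∈ Com0
      rw [Subgroup.coe_mul, Subgroup.coe_inv, SubgroupClass.coe_zpow]; exact hi)
    rw [map_mul, map_inv, map_zpow, mul_inv_eq_one] at e
    simp [e]

/-- the even part of the cover -/
noncomputable def covTop : parC.ker →* Cfsg.Spor.Fi24' :=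
  (proj.comp parC.ker.subtype).codRestrict _ fun a => by
    rw [Fi24.commutator_eq, MonoidHom.mem_ker]
    show Fi24.parity (proj a) = 1
    rw [parity_proj]; exact a.2

theorem covTop_surjective : Function.Surjective covTop := fun b => by
  have hle : (⊤ : Subgroup Cfsg.Spor.Fi24) ≤ proj.range := by
    rw [← Fi24.closure_g12, Subgroup.closure_le]
    rintro _ ⟨x, -, rfl⟩
    exact ⟨q12 x, proj_q12 x⟩
  obtain ⟨a, ha⟩ := hle (Subgroup.mem_top (b : Cfsg.Spor.Fi24))
  have hb : Fi24.parity (b : Cfsg.Spor.Fi24) = 1 :=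
    MonoidHom.mem_ker.1 (Fi24.commutator_eq ▸ b.2)
  exact ⟨⟨a, by rw [MonoidHom.mem_ker, ← parity_proj, ha, hb]⟩, Subtype.ext ha⟩

theorem covTop_ker {n : parC.ker} : n ∈ covTop.ker ↔ proj (n : Cov) = 1 := by
  rw [MonoidHom.mem_ker]
  exact ⟨fun e => congrArg Subtype.val e, fun e => Subtype.ext e⟩

/-- the class of the relator in the even part -/
noncomputable def zTop : parC.ker :=
  ⟨Zc, by rw [MonoidHom.mem_ker, ← parity_proj, proj_Zc, map_one]⟩

theorem mem_zTop (h : ChecksOK) {n : parC.ker} (hn : n ∈ covTop.ker) :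
    n ∈ Subgroup.zpowers zTop := by
  obtain ⟨i, hi⟩ := Subgroup.mem_zpowers_iff.1 (mem_zpowers_of_proj h (covTop_ker.1 hn)).1
  exact Subgroup.mem_zpowers_iff.2 ⟨i, Subtype.ext (by rw [SubgroupClass.coe_zpow]; exact hi)⟩

theorem commutator_covTop (h : ChecksOK) : commutator parC.ker = ⊤ := by
  set D := commutator parC.ker
  let q := QuotientGroup.mk' D
  have hperf : commutator Cfsg.Spor.Fi24' = ⊤ := by
    have := Fi24.simple_commutator h
    refine ((Subgroup.Normal.eq_bot_or_eq_top inferInstance).resolve_left fun hb => ?_)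
    have hab : ∀ a b : Cfsg.Spor.Fi24', a * b = b * a := fun a b =>
      commutatorElement_eq_one_iff_mul_comm.1 (Subgroup.mem_bot.1 (hb ▸
        Subgroup.commutator_mem_commutator (Subgroup.mem_top a) (Subgroup.mem_top b)))
    have hc := Fi24.card_commutator h
    have : Finite Cfsg.Spor.Fi24' := Nat.finite_of_card_ne_zero (by rw [hc]; norm_num)
    obtain ⟨x, hx⟩ := exists_prime_orderOf_dvd_card' (G := Cfsg.Spor.Fi24') 2 (by rw [hc]; norm_num)
    have hn : (Subgroup.zpowers x).Normal :=
      ⟨fun n hn g => by rwa [hab g n, mul_inv_cancel_right]⟩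
    rcases hn.eq_bot_or_eq_top with e | e
    · rw [Subgroup.zpowers_eq_bot] at e
      rw [e, orderOf_one] at hx
      omega
    · have k := Nat.card_zpowers x
      rw [e, Subgroup.card_top, hc, hx] at k
      omega
  have hcyc : ∀ a : parC.ker, q a ∈ Subgroup.zpowers (q zTop) := by
    intro a
    have hmap : D.map covTop = ⊤ := by
      rw [map_commutator_eq, MonoidHom.range_eq_top.2 covTop_surjective]
      exact hperf
    obtain ⟨d, hd, e⟩ : covTop a ∈ D.map covTop := hmap ▸ Subgroup.mem_top _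
    obtain ⟨i, hi⟩ := Subgroup.mem_zpowers_iff.1 (mem_zTop h (n := d⁻¹ * a)
      (by rw [MonoidHom.mem_ker, map_mul, map_inv, e, inv_mul_cancel]))
    refine Subgroup.mem_zpowers_iff.2 ⟨i, ?_⟩
    rw [← map_zpow, hi, map_mul, map_inv, show q d = 1 from (QuotientGroup.eq_one_iff _).2 hd,
      inv_one, one_mul]
  have hz3 : q zTop ^ 3 = 1 := by
    rw [← map_pow]
    refine (congrArg q (Subtype.ext ?_)).trans (map_one q)
    rw [SubgroupClass.coe_pow]
    exact (mem_zpowers_of_proj h (n := (1 : Cov)) (map_one _)).2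
  let pr : ∀ x y : Fin 12, parC.ker := fun x y =>
    ⟨q12 x * q12 y, by rw [MonoidHom.mem_ker, map_mul, parC_q12 x.2, parC_q12 y.2]; rfl⟩
  have hcub : ∀ a, q a ^ 3 = 1 := fun a => by
    obtain ⟨i, hi⟩ := Subgroup.mem_zpowers_iff.1 (hcyc a)
    rw [← hi, ← zpow_natCast, ← zpow_mul, mul_comm, zpow_mul, zpow_natCast, hz3, one_zpow]
  have hc2 : ∀ x y : Fin 12, Fi24.lbl x y = 2 → q (pr x y) = 1 := fun x y e => by
    have hsq : pr x y ^ 2 = 1 := by
      refine Subtype.ext ?_
      have hr : (List.range 12).all (fun x => (List.range 12).all fun y => x == y ||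
          preW.contains (List.replicate (Fi24.lbl x y) [x, y]).flatten) = true := by decide +kernel
      have hr' := List.all_eq_true.1 (List.all_eq_true.1 hr x (List.mem_range.2 x.2)) y
        (List.mem_range.2 y.2)
      rw [Bool.or_eq_true, beq_iff_eq] at hr'
      rw [SubgroupClass.coe_pow, Subgroup.coe_one]
      rcases hr' with hxy | hr'
      · show (q12 x * q12 y) ^ 2 = 1
        rw [hxy, q12_sq, one_pow]
      · have e' := gword_covW _ (List.contains_iff_mem.1 hr')
        rw [Fi24.gword_replicate, gword_cons, Fi24.wone, e] at e'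
        exact e'
    have h2 : q (pr x y) ^ 2 = 1 := by rw [← map_pow, hsq, map_one]
    have h3 := hcub (pr x y)
    rwa [pow_succ, h2, one_mul] at h3
  have htr : ∀ x y w : Fin 12, q (pr x y) = q (pr x w) * q (pr w y) := fun x y w => by
    rw [← map_mul]
    refine congrArg q (Subtype.ext ?_)
    show q12 x * q12 y = q12 x * q12 w * (q12 w * q12 y)
    rw [mul_assoc, ← mul_assoc (q12 w), q12_sq, one_mul]
  have hdef : ∀ x y : Fin 12, ∃ w : Fin 12, Fi24.lbl x y = 2 ∨
      (Fi24.lbl x w = 2 ∧ Fi24.lbl w y = 2) := by decide +kernel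
  have hpr : ∀ x y, pr x y ∈ D := fun x y => by
    refine (QuotientGroup.eq_one_iff _).1 (show q (pr x y) = 1 from ?_)
    obtain ⟨w, e | ⟨e1, e2⟩⟩ := hdef x y
    · exact hc2 x y e
    · rw [htr x y w, hc2 x w e1, hc2 w y e2, one_mul]
  rw [eq_top_iff]
  rintro ⟨a, ha⟩ -
  obtain ⟨p, rfl⟩ := QuotientGroup.mk'_surjective Com0 a
  obtain ⟨w, hw, rfl⟩ := exists_word p
  have hlen := word_even (show preParity (gword p12 w) = 1 from ha) hw rfl
  have key : ∀ w : List ℕ, w.length % 2 = 0 → (∀ x ∈ w, x < 12) →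
      ∃ m : gword q12 w ∈ parC.ker, (⟨_, m⟩ : parC.ker) ∈ D := by
    intro w
    induction w using List.twoStepInduction with
    | nil => intro _ _; exact ⟨one_mem _, one_mem D⟩
    | singleton x => intro e; simp at e
    | cons_cons x y w ih _ =>
      intro hl hlt
      obtain ⟨m, hm⟩ := ih (by simp only [List.length_cons] at hl; omega)
        fun z hz => hlt z (by simp [hz])
      have e : gword q12 (x :: y :: w) = q12 x * q12 y * gword q12 w := by
        rw [gword_cons, gword_cons, mul_assoc]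
      set P := pr ⟨x, hlt x (by simp)⟩ ⟨y, hlt y (by simp)⟩
      have hP := mul_mem (hpr ⟨x, hlt x (by simp)⟩ ⟨y, hlt y (by simp)⟩) hm
      have hmem : gword q12 (x :: y :: w) ∈ parC.ker := e ▸ (P * ⟨_, m⟩).2
      exact ⟨hmem, (show (⟨_, hmem⟩ : parC.ker) = P * ⟨_, m⟩ from Subtype.ext e) ▸ hP⟩
  obtain ⟨m, hm⟩ := key w hlen hw
  simpa only [q12_gword] using hm

/-- the multiplier, from a group where the dropped relator survives -/
theorem fi24_multiplier (h : ChecksOK)
    (hwit : ∃ (H : Type) (_ : Group H) (f : Pre →* H), f zRel ≠ 1 ∧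
      ∀ a, preParity a = 1 → Commute (f zRel) (f a)) :
    Cfsg.HasCyclicSchurMultiplier Cfsg.Spor.Fi24' 3 := by
  obtain ⟨H, _, f, hne, hcomm⟩ := hwit
  have hz1 : zTop ≠ 1 := by
    intro e
    refine hne ?_
    have hmem : zRel ∈ Com0 := (QuotientGroup.eq_one_iff _).1
      (show QuotientGroup.mk' Com0 zRel = 1 by rw [← Zc_eq]; exact congrArg Subtype.val e)
    let S : Subgroup H := Subgroup.centralizer (f '' {a | preParity a = 1})
    have hk : Ker0 ≤ S.comap f := by
      intro n hn
      have hnc : Ker0 ≤ Subgroup.normalClosure {zRel} := by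
        intro n hn
        let N := Subgroup.normalClosure ({zRel} : Set Pre)
        let v : ℕ → Pre ⧸ N := fun x => QuotientGroup.mk' N (p12 x)
        have hv : ∀ x, v x = (v x)⁻¹ := fun x => by
          show QuotientGroup.mk' N (p12 x) = (QuotientGroup.mk' N (p12 x))⁻¹
          rw [← map_inv, ← p12_inv]
        have hrel : ∀ w ∈ Fi24.relW, gword v w = 1 := by
          intro w hw
          rw [← gword_map]
          by_cases hc : w = Fi24.cW
          · rw [hc]; exact (QuotientGroup.eq_one_iff _).2 (Subgroup.subset_normalClosure rfl)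
          · have hk := List.all_eq_true.1 (show Fi24.relW.all
              (fun w => preW.contains w || w == Fi24.cW) = true by decide +kernel) w hw
            rw [Bool.or_eq_true, beq_iff_eq] at hk
            rw [gword_preW w (List.contains_iff_mem.1 (hk.resolve_right hc)), map_one]
        let back : Cfsg.Spor.Fi24 →* Pre ⧸ N :=
          PresentedGroup.toGroup (f := fun a => v (Fi24.enc a)) fun r hr => by
            rw [Fi24.rels_eq] at hr
            rw [map_eq_gword Fi24.enc (fun y => y) (FreeGroup.lift fun a => v (Fi24.enc a)) v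
              (fun a => FreeGroup.lift_apply_of)
              (fun a => by rw [FreeGroup.lift_apply_of, ← hv]) r]
            exact hrel _ (List.mem_map.2 ⟨r, hr, rfl⟩)
        have e2 : back.comp toFi24 = QuotientGroup.mk' N := by
          refine MonoidHom.eq_of_eqOn_dense closure_p12 ?_
          rintro _ ⟨x, hx, rfl⟩
          show back (toFi24 (p12 x)) = _
          rw [toFi24_p12, Fi24.g12, letterVal_lt Fi24.gen hx]
          refine (PresentedGroup.toGroup.of (f := fun a => v (Fi24.enc a)) _).trans ?_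
          exact congrArg v (show Fi24.enc (Fi24.dec x) = x by interval_cases x <;> rfl)
        refine (QuotientGroup.eq_one_iff n).1 ?_
        have := DFunLike.congr_fun e2 n
        rw [MonoidHom.comp_apply, show toFi24 n = 1 from hn, map_one] at this
        exact this.symm
      have hle : Subgroup.normalClosure ({zRel} : Set Pre) ≤ S.comap f := by
        have : (S.comap f).Normal := by
          refine ⟨fun m hm g => ?_⟩
          rw [Subgroup.mem_comap, Subgroup.mem_centralizer_iff] at hm ⊢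
          rintro _ ⟨a, ha, rfl⟩
          have ha' : preParity (g⁻¹ * a * g) = 1 := by
            rw [map_mul, map_mul, map_inv, show preParity a = 1 from ha, mul_one, inv_mul_cancel]
          have k := hm _ ⟨_, ha', rfl⟩
          rw [map_mul, map_mul, map_inv] at k
          rw [map_mul, map_mul, map_inv]
          calc f a * (f g * f m * (f g)⁻¹) = f g * (((f g)⁻¹ * f a * f g) * f m) * (f g)⁻¹ := by group
            _ = f g * (f m * ((f g)⁻¹ * f a * f g)) * (f g)⁻¹ := by rw [k]
            _ = f g * f m * (f g)⁻¹ * f a := by group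
        refine Subgroup.normalClosure_le_normal fun m hm => ?_
        rw [Set.mem_singleton_iff.1 hm]
        show f zRel ∈ S
        rw [Subgroup.mem_centralizer_iff]
        rintro _ ⟨a, ha, rfl⟩
        exact (hcomm a ha).eq.symm
      exact hle (hnc hn)
    have hle : Com0 ≤ f.ker := by
      rw [Com0, Subgroup.commutator_le]
      intro n hn a ha
      rw [MonoidHom.mem_ker, map_commutatorElement, commutatorElement_eq_one_iff_mul_comm]
      exact (Subgroup.mem_centralizer_iff.1 (hk hn) _ ⟨a, ha, rfl⟩).symm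
    exact hle hmem
  have := Fi24.finite_Fi24 h
  have hz3 : zTop ^ 3 = 1 := Subtype.ext (by
    rw [SubgroupClass.coe_pow]; exact (mem_zpowers_of_proj h (n := (1 : Cov)) (map_one _)).2)
  have hord : orderOf zTop = 3 := orderOf_eq_prime hz3 hz1
  have hker : covTop.ker = Subgroup.zpowers zTop := by
    refine le_antisymm (fun n hn => mem_zTop h hn) (Subgroup.zpowers_le.2 (covTop_ker.2 proj_Zc))
  have hfin : Finite parC.ker := by
    have : Finite covTop.ker := by
      rw [hker]
      exact Nat.finite_of_card_ne_zero (by rw [Nat.card_zpowers, hord]; norm_num)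
    have : Finite (parC.ker ⧸ covTop.ker) := Finite.of_equiv _
      (QuotientGroup.quotientKerEquivOfSurjective covTop covTop_surjective).symm.toEquiv
    exact Finite.of_subgroup_quotient covTop.ker
  refine ⟨⟨parC.ker, inferInstance, hfin, covTop, ⟨covTop_surjective, fun n hn => ?_, ?_⟩, ?_⟩,
    fun Γ _ _ σ hσ => exists_surj h Γ σ hσ⟩
  · rw [Subgroup.mem_center_iff]
    exact fun a => Subtype.ext (ker_comm (covTop_ker.1 hn) a.2).symm
  · rw [commutator_covTop h]; exact le_top
  · have hc : IsCyclic covTop.ker := hker ▸ inferInstance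
    exact ⟨mulEquivOfCyclicCardEq (by
      rw [hker, Nat.card_zpowers, hord, Nat.card_eq_fintype_card, Fintype.card_multiplicative,
        ZMod.card])⟩

end CfsgLib.Fi24Mult30
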