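import Cfsg.Agent.CosetEnum.Fi24.Rels

/-!
The presentation of Fi24 without the seventeenth power relator.
-/

set_option autoImplicit false
set_option maxRecDepth 8000
set_option linter.constructorNameAsVariable false

namespace CfsgLib.Fi24Mult30

open Cfsg.Spor CfsgLib.CosetEnum
open CfsgLib.CosetEnum.Fi24 (enc dec enc_lt dec_enc cW wrev wone wapp relW lW)

/-- the further relator that is kept -/
abbrev preExtra : List (FreeGroup Cfsg.Spor.Fi24.Gen) := Cfsg.Spor.Fi24.extra.take 1

/-- the presented group without the seventeenth power relator -/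
abbrev Pre : Type := CoxPresented Cfsg.Spor.Fi24.Gen Cfsg.Spor.Fi24.edges preExtra

/-- its relators as a list -/
abbrev preList : List (FreeGroup Cfsg.Spor.Fi24.Gen) :=
  coxList Cfsg.Spor.Fi24.edges preExtra

theorem preRels_eq : coxRelators Cfsg.Spor.Fi24.edges ∪ {r | r ∈ preExtra} =
    {r | r ∈ preList} :=
  coxList_set _ _

/-- the value of a letter -/
def preGen (x : ℕ) : Pre := PresentedGroup.of (dec x)

theorem preGen_sq (x : ℕ) : preGen x * preGen x = 1 := by
  have hmem : dec x ∈ coxNodes Cfsg.Spor.Fi24.edges := by cases dec x <;> decide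
  have h : PresentedGroup.mk (coxRelators Cfsg.Spor.Fi24.edges ∪ {r | r ∈ preExtra})
      ((FreeGroup.of (dec x) * FreeGroup.of (dec x)) ^
        coxLabel Cfsg.Spor.Fi24.edges (dec x) (dec x)) = 1 :=
    PresentedGroup.one_of_mem (Or.inl ⟨_, hmem, _, hmem, rfl⟩)
  simpa [coxLabel, preGen, PresentedGroup.of] using h

/-- all twelve letters; the others mean 1 -/
noncomputable def p12 : ℕ → Pre := letterVal 12 preGen

theorem p12_inv (x : ℕ) : p12 x = (p12 x)⁻¹ :=
  letterVal_inv 12 preGen (fun y => y)
    (fun y hy => ⟨hy, (inv_eq_of_mul_eq_one_right (preGen_sq y)).symm⟩) (fun _ hy => hy) x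

theorem p12_sq (x : ℕ) : p12 x * p12 x = 1 := by
  nth_rewrite 2 [p12_inv x]
  rw [mul_inv_cancel]

/-- the relators as words -/
def preW : List (List ℕ) := preList.map (encWord enc fun y => y)

theorem gword_preW : ∀ w ∈ preW, gword p12 w = 1 := by
  refine gword_relWord preList _ preRels_eq enc (fun y => y) (MonoidHom.id _) p12 ?_ ?_ <;> intro x
  · rw [p12, letterVal_lt preGen (enc_lt x), preGen, dec_enc]; rfl
  · rw [p12, letterVal_lt preGen (enc_lt x), ← inv_eq_of_mul_eq_one_right (preGen_sq (enc x)),
      preGen, dec_enc]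
    rfl

theorem closure_p12 : Subgroup.closure {a | ∃ x < 12, p12 x = a} = ⊤ := by
  rw [eq_top_iff, ← PresentedGroup.closure_range_of, Subgroup.closure_le]
  rintro _ ⟨x, rfl⟩
  exact Subgroup.subset_closure
    ⟨enc x, enc_lt x, by rw [p12, letterVal_lt preGen (enc_lt x), preGen, dec_enc]⟩

/-- maps out of the presentation from values of the letters -/
noncomputable def preLift {G : Type*} [Group G] (v : ℕ → G) (hv : ∀ x, v x = (v x)⁻¹)
    (hr : ∀ w ∈ preW, gword v w = 1) : Pre →* G :=
  PresentedGroup.toGroup (f := fun a => v (enc a)) fun r hr' => by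
    rw [preRels_eq] at hr'
    rw [map_eq_gword enc (fun y => y) (FreeGroup.lift fun a => v (enc a)) v
      (fun a => FreeGroup.lift_apply_of)
      (fun a => by rw [FreeGroup.lift_apply_of, ← hv]) r]
    exact hr _ (List.mem_map.2 ⟨r, hr', rfl⟩)

theorem preLift_p12 {G : Type*} [Group G] (v : ℕ → G) (hv : ∀ x, v x = (v x)⁻¹)
    (hr : ∀ w ∈ preW, gword v w = 1) {x : ℕ} (hx : x < 12) : preLift v hv hr (p12 x) = v x := by
  rw [p12, letterVal_lt preGen hx]
  refine (PresentedGroup.toGroup.of (f := fun a => v (enc a)) _).trans ?_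
  exact congrArg v (show enc (dec x) = x by interval_cases x <;> rfl)

theorem preW_sub : preW.all (fun w => relW.contains w) = true := by decide +kernel

theorem preW_mem {w : List ℕ} (hw : w ∈ preW) : w ∈ relW :=
  List.contains_iff_mem.1 (List.all_eq_true.1 preW_sub w hw)

/-- the map onto Fi24 -/
noncomputable def toFi24 : Pre →* Cfsg.Spor.Fi24 :=
  preLift Fi24.g12 Fi24.g12_inv fun w hw => Fi24.gword_relW w (preW_mem hw)

theorem toFi24_p12 (x : ℕ) : toFi24 (p12 x) = Fi24.g12 x := by
  by_cases hx : x < 12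
  · exact preLift_p12 _ _ _ hx
  · rw [p12, letterVal, if_neg hx, map_one, Fi24.g12, letterVal, if_neg hx]

theorem toFi24_gword (w : List ℕ) : toFi24 (gword p12 w) = gword Fi24.g12 w := by
  rw [gword_map]
  exact gword_congr _ _ fun x _ => toFi24_p12 x

theorem preW_evenB : preW.all (fun w => Nat.beq (Nat.mod w.length 2) 0) = true := by decide +kernel

theorem preW_even {w : List ℕ} (hw : w ∈ preW) : w.length % 2 = 0 :=
  Nat.eq_of_beq_eq_true (List.all_eq_true.1 preW_evenB w hw)

/-- all letters are odd -/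
noncomputable def preParity : Pre →* ℤˣ :=
  preLift (fun _ => -1) (fun _ => by rw [inv_eq_of_mul_eq_one_right]; rfl) fun w hw => by
    rw [gword, List.map_const', List.prod_replicate]
    exact (Nat.even_iff.2 (preW_even hw)).neg_one_pow

theorem preParity_p12 {x : ℕ} (hx : x < 12) : preParity (p12 x) = -1 :=
  preLift_p12 _ _ _ hx

/-- the dropped relator -/
noncomputable def zRel : Pre := gword p12 cW

end CfsgLib.Fi24Mult30
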