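import Cfsg.Agent.Fi24Mult30.Cover
import Cfsg.Agent.CosetEnum.Fi24.Steps

/-!
Cosets of the copy of Fi23 times the group of `l` in the cover, as in the index proof of Fi24.
-/

set_option autoImplicit false
set_option maxRecDepth 8000

namespace CfsgLib.Fi24Mult30

open CfsgLib.CosetEnum
open CfsgLib.CosetEnum.Fi24 (wrev wone wapp lsub lsub_word L9 mem_L9 gW fixW wlW ChecksOK act act_val
  pt uMid vMid mem_Mg fix4_eq)
open CfsgLib.CosetEnum.Fi24.Tab (npts tx runL lab cls)

/-- the subgroup of nine letters -/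
noncomputable def MgC : Subgroup Cov := lsub q12 L9

theorem MgC_le : MgC ≤ HC := by
  rw [MgC, lsub, Subgroup.closure_le]
  rintro _ ⟨x, hx, rfl⟩
  exact q12_mem_HC (by have := mem_L9.1 hx; omega)

/-- membership of the certified word, from a certificate of one coset -/
theorem orbit_mem {ep node next : ℕ → ℕ} {words : List (List ℕ)} {nr N : ℕ} {u : List ℕ}
    (hN : FactsChecked ep (fun y => y) words nr N) (h0 : node 0 = 0)
    (hp : PathsChecked ep (fun y => y) N [u] 1 node next 1 1) (keep keep' : List ℕ)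
    (h1 : wordsFrom (fun y => y) preW ((words.take nr).map fun w => w.map fun x => keep.getD x 12) = true)
    (h2 : (words.drop nr).all (fun w => w.all fun x => keep'.contains (keep.getD x 12)) = true) :
    gword q12 (u.map fun x => keep.getD x 12) ∈ lsub q12 keep' := by
  set g : ℕ → Cov := fun x => q12 (keep.getD x 12)
  have hg : ∀ w, gword g w = gword q12 (w.map fun x => keep.getD x 12) := fun w => by
    rw [gword, gword, List.map_map]; rfl
  have hb := gword_of_wordsFrom q12 (fun y => y) q12_inv h1 gword_covW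
  have hrel : ∀ (k : ℕ) (w : List ℕ), words[k]? = some w → k < nr → gword g w = 1 :=
    fun k w hk hlt => by
      rw [hg]
      exact hb _ (List.mem_map_of_mem (List.mem_of_getElem? (i := k)
        (by rw [List.getElem?_take, if_pos hlt, hk])))
  have hsub : ∀ (k : ℕ) (w : List ℕ), words[k]? = some w → gword g w ∈ lsub q12 keep' := by
    intro k w hk
    by_cases hlt : k < nr
    · rw [hrel k w hk hlt]; exact one_mem _
    · have hm : w ∈ words.drop nr := List.mem_of_getElem? (i := k - nr)
        (by rw [List.getElem?_drop, show nr + (k - nr) = k by omega, hk])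
      rw [hg]
      refine lsub_word fun y hy => ?_
      obtain ⟨x, hx, rfl⟩ := List.mem_map.1 hy
      exact List.contains_iff_mem.1 (List.all_eq_true.1 (List.all_eq_true.1 h2 w hm) x hx)
  have hr := relIndex_orbit_le hN Nat.one_pos h0 hp (lsub q12 keep') g (fun x => q12_inv _) hrel hsub
  rw [← hg]
  refine Subgroup.relIndex_eq_one.1 (le_antisymm hr.1 (Nat.pos_of_ne_zero hr.2)) ?_
  exact Subgroup.subset_closure ⟨u, List.mem_singleton_self u, rfl⟩

/-- membership in `HC` of a product of letters other than `k` -/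
theorem lsub_le_HC {keep : List ℕ} (hk : keep.all (fun x => Nat.blt x 11) = true) :
    lsub q12 keep ≤ HC := by
  rw [lsub, Subgroup.closure_le]
  rintro _ ⟨x, hx, rfl⟩
  exact q12_mem_HC (by simpa [Nat.blt, Nat.ble_eq] using List.all_eq_true.1 hk x hx)

theorem mid_mem : gword q12 [11, 0, 1, 2, 3, 4, 5, 7, 3, 2, 4, 3, 7, 8, 7, 3, 2, 1, 0, 4, 3, 2, 1,
    7, 3, 2, 4, 3, 10, 11, 0, 1, 2, 3, 7, 8, 4, 3, 7, 5, 4, 3, 2, 1, 0, 11] ∈ HC :=
  lsub_le_HC (keep := [0, 1, 2, 3, 4, 5, 7, 8, 10]) (by decide)
    (orbit_mem (u := Fi24.Mid.orbitWords.headD []) Fi24.Mid.facts Fi24.Mid.node_zero Fi24.Mid.paths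
      [0, 1, 2, 3, 4, 5, 7, 8, 10, 11] _ (by decide +kernel) (by decide +kernel))

theorem fix4_mem : gword q12 ([11, 10, 0, 11] ++ fixW ++ [11, 0, 10, 11]) ∈ HC :=
  lsub_le_HC (keep := [0, 1, 2, 3, 4, 5, 7, 10]) (by decide)
    (orbit_mem (u := Fi24.Fix4.orbitWords.headD []) Fi24.Fix4.facts Fi24.Fix4.node_zero Fi24.Fix4.paths
      [0, 1, 2, 3, 4, 5, 7, 10, 11] _ (by decide +kernel) (by decide +kernel))

/-- the word from the base coset to the fourth point -/
def gW : List ℕ := [11, 0, 10, 11]

theorem rel_mem (w : List ℕ) (h : preW.contains w = true) : gword q12 w = 1 :=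
  gword_covW w (List.contains_iff_mem.1 h)

theorem comm_letters {x y : ℕ} (h : preW.contains [x, y, x, y] = true) :
    q12 x * q12 y = q12 y * q12 x := by
  have e := rel_mem _ h
  rw [gword_cons, gword_cons, gword_cons, gword_cons, gword_nil, mul_one, ← mul_assoc] at e
  rw [eq_inv_of_mul_eq_one_left e, mul_inv_rev, ← q12_inv, ← q12_inv]

theorem braid_letters {x y : ℕ} (h : preW.contains [x, y, x, y, x, y] = true) :
    q12 x * (q12 y * q12 x) = q12 y * (q12 x * q12 y) := by
  have e := rel_mem _ h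
  simp only [gword_cons, gword_nil, mul_one] at e
  rw [← mul_assoc (q12 y), ← mul_assoc (q12 x)] at e
  rw [eq_inv_of_mul_eq_one_left (a := q12 x * (q12 y * q12 x)) (b := q12 y * (q12 x * q12 y))
    (by simpa only [mul_assoc] using e)]
  simp only [mul_inv_rev, ← q12_inv, mul_assoc]

theorem MgC_comm_k {a : Cov} (ha : a ∈ MgC) : a * q12 11 = q12 11 * a := by
  have hle : MgC ≤ Subgroup.centralizer ({q12 11} : Set Cov) := by
    rw [MgC, lsub, Subgroup.closure_le]
    rintro _ ⟨x, hx, rfl⟩
    refine Subgroup.mem_centralizer_iff.2 fun z hz => ?_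
    rw [Set.mem_singleton_iff.1 hz]
    exact (comm_letters (List.all_eq_true.1
      (show L9.all (fun x => preW.contains [x, 11, x, 11]) = true by decide +kernel) x hx)).symm
  exact (Subgroup.mem_centralizer_iff.1 (hle ha) _ rfl).symm

/-- generators of the stabilizer of point 4 -/
noncomputable def X4C : Subgroup Cov :=
  lsub q12 [0, 2, 3, 4, 5, 6, 7, 8, 9, 10] ⊔ Subgroup.zpowers (gword q12 fixW)

theorem conj_X4C {a : Cov} (ha : a ∈ X4C) :
    (gword q12 gW)⁻¹ * a * gword q12 gW ∈ HC := by
  have hmem : ∀ {a : Cov}, (gword q12 gW)⁻¹ * a * gword q12 gW ∈ HC →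
      a ∈ HC.comap (MulAut.conj (gword q12 gW)⁻¹).toMonoidHom := fun e => by
    rw [Subgroup.mem_comap]
    simpa [MulAut.conj_apply] using e
  have hrev : (gword q12 gW)⁻¹ = gword q12 gW.reverse := (wrev q12_inv gW).symm
  have hle : X4C ≤ HC.comap (MulAut.conj (gword q12 gW)⁻¹).toMonoidHom := by
    refine sup_le ?_ (Subgroup.zpowers_le.2 (hmem ?_))
    · rw [lsub, Subgroup.closure_le]
      rintro _ ⟨x, hx, rfl⟩
      refine hmem ?_
      have key : ∀ {y : ℕ}, y < 11 → q12 x * gword q12 gW = gword q12 gW * q12 y →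
          (gword q12 gW)⁻¹ * q12 x * gword q12 gW ∈ HC := fun hy e => by
        rw [mul_assoc, e, inv_mul_cancel_left]; exact q12_mem_HC hy
      have hk : q12 11 * (q12 0 * q12 11) = q12 0 * (q12 11 * q12 0) :=
        braid_letters (by decide +kernel)
      have hl : q12 10 * (q12 11 * q12 10) = q12 11 * (q12 10 * q12 11) :=
        braid_letters (by decide +kernel)
      have hal : q12 0 * q12 10 = q12 10 * q12 0 := comm_letters (by decide +kernel)
      have hg : gword q12 gW = q12 11 * (q12 0 * (q12 10 * q12 11)) := by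
        simp [gW, gword_cons, gword_nil]
      simp only [List.mem_cons, List.not_mem_nil, or_false] at hx
      rcases hx with rfl | hx
      · refine key (y := 10) (by omega) ?_
        rw [hg]
        calc q12 0 * (q12 11 * (q12 0 * (q12 10 * q12 11)))
            = (q12 0 * (q12 11 * q12 0)) * (q12 10 * q12 11) := by simp only [mul_assoc]
          _ = (q12 11 * (q12 0 * q12 11)) * (q12 10 * q12 11) := by rw [hk]
          _ = q12 11 * (q12 0 * (q12 11 * (q12 10 * q12 11))) := by simp only [mul_assoc]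
          _ = q12 11 * (q12 0 * (q12 10 * (q12 11 * q12 10))) := by rw [← hl]
          _ = _ := by simp only [mul_assoc]
      by_cases h10 : x = 10
      · subst h10
        refine key (y := 0) (by omega) ?_
        rw [hg]
        calc q12 10 * (q12 11 * (q12 0 * (q12 10 * q12 11)))
            = q12 10 * (q12 11 * ((q12 0 * q12 10) * q12 11)) := by simp only [mul_assoc]
          _ = (q12 10 * (q12 11 * q12 10)) * (q12 0 * q12 11) := by rw [hal]; simp only [mul_assoc]
          _ = q12 11 * (q12 10 * (q12 11 * (q12 0 * q12 11))) := by rw [hl]; simp only [mul_assoc]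
          _ = q12 11 * ((q12 10 * q12 0) * (q12 11 * q12 0)) := by rw [hk]; simp only [mul_assoc]
          _ = _ := by rw [← hal]; simp only [mul_assoc]
      · have hc : x ∈ [2, 3, 4, 5, 6, 7, 8, 9] := by simp; omega
        have c : ∀ y ∈ [11, 0, 10], q12 x * q12 y = q12 y * q12 x := fun y hy =>
          comm_letters (List.all_eq_true.1 (List.all_eq_true.1
            (show [2, 3, 4, 5, 6, 7, 8, 9].all (fun x =>
              [11, 0, 10].all fun y => preW.contains [x, y, x, y]) = true by decide +kernel) x hc) y hy)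
        refine key (y := x) (by omega) ?_
        have : gword q12 gW ∈ Subgroup.centralizer ({q12 x} : Set Cov) :=
          gword_mem _ _ fun y hy => Subgroup.mem_centralizer_iff.2 fun z hz => by
            rw [Set.mem_singleton_iff.1 hz]
            exact c y ((show ∀ y ∈ gW, y ∈ [11, 0, 10] by decide) y hy)
        exact Subgroup.mem_centralizer_iff.1 this _ rfl
    · have e := fix4_mem
      rw [wapp, wapp, ← show gW = [11, 0, 10, 11] from rfl,
        show ([11, 10, 0, 11] : List ℕ) = gW.reverse from rfl, ← hrev] at e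
      exact e
  have e := hle ha
  rw [Subgroup.mem_comap] at e
  simpa [MulAut.conj_apply] using e

/-- the two words give the same left coset -/
def Same (a b : List ℕ) : Prop := (gword q12 a)⁻¹ * gword q12 b ∈ HC

theorem Same.trans {a b c : List ℕ} (h1 : Same a b) (h2 : Same b c) : Same a c := by
  have := mul_mem h1 h2
  rwa [mul_assoc, mul_inv_cancel_left] at this

theorem Same.symm {a b : List ℕ} (h : Same a b) : Same b a := by
  have := inv_mem h
  rwa [mul_inv_rev, inv_inv] at this

theorem Same.pre {a b : List ℕ} (v : List ℕ) (h : Same a b) : Same (v ++ a) (v ++ b) := by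
  show _ ∈ HC
  rwa [wapp, wapp, mul_inv_rev, mul_assoc, inv_mul_cancel_left]

theorem Same.of_small {w : List ℕ} (h : w.all (fun x => Nat.blt x 11) = true) : Same [] w := by
  show _ ∈ HC
  rw [gword_nil, inv_one, one_mul]
  exact gword_mem_HC fun x hx => by simpa [Nat.blt, Nat.ble_eq] using List.all_eq_true.1 h x hx

theorem Same.of_word {a b : List ℕ} (h : gword q12 (a.reverse ++ b) ∈ HC) : Same a b := by
  show _ ∈ HC
  rwa [← wrev q12_inv, ← wapp]

theorem kk : q12 11 * q12 11 = 1 := q12_sq 11

theorem gdC : gword q12 gW = q12 11 * (q12 0 * (q12 10 * q12 11)) := by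
  simp [gW, gword_cons, gword_nil]

theorem cut (x : ℕ) (a : Cov) : q12 x * (q12 x * a) = a := by
  rw [← mul_assoc, q12_sq, one_mul]

theorem id1 : Same [] (11 :: [11]) := by
  refine Same.of_word ?_
  simp [gword_cons, gword_nil, kk, one_mem]

theorem id2 : Same ([10] ++ [11]) (11 :: ([10] ++ [11])) := by
  refine Same.of_word ?_
  have hl : q12 10 * (q12 11 * q12 10) = q12 11 * (q12 10 * q12 11) :=
    braid_letters (by decide +kernel)
  simp only [List.reverse_append, List.reverse_cons, List.reverse_nil, List.nil_append,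
    List.cons_append, gword_cons, gword_nil, mul_one]
  rw [← hl, cut, ← mul_assoc, kk, one_mul]
  exact q12_mem_HC (by omega)

theorem id6 : Same ([0] ++ [11]) (11 :: ([0] ++ [11])) := by
  refine Same.of_word ?_
  have hk : q12 0 * (q12 11 * q12 0) = q12 11 * (q12 0 * q12 11) :=
    braid_letters (by decide +kernel)
  simp only [List.reverse_append, List.reverse_cons, List.reverse_nil, List.nil_append,
    List.cons_append, gword_cons, gword_nil, mul_one]
  rw [← hk, cut, ← mul_assoc, kk, one_mul]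
  exact q12_mem_HC (by omega)

theorem id3 : Same ([] ++ gW) (11 :: ([10, 0] ++ [11])) := by
  refine Same.of_word ?_
  have hal : q12 0 * q12 10 = q12 10 * q12 0 := comm_letters (by decide +kernel)
  simp only [gW, List.reverse_cons, List.reverse_nil, List.nil_append, List.cons_append,
    gword_cons, gword_nil, mul_one]
  rw [cut, ← mul_assoc (q12 10) (q12 0) (q12 11), ← hal, mul_assoc, cut, cut, kk]
  exact one_mem _

theorem id4 : Same ([0, 10] ++ [11]) (11 :: ([] ++ gW)) := by
  refine Same.of_word ?_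
  simp only [gW, List.reverse_cons, List.reverse_nil, List.nil_append, List.cons_append,
    gword_cons, gword_nil, mul_one]
  rw [cut, cut, cut, kk]
  exact one_mem _

theorem id5 : Same ([0, 1] ++ gW) (11 :: ([0, 1] ++ gW)) := by
  refine Same.of_word ?_
  have hk : q12 0 * (q12 11 * q12 0) = q12 11 * (q12 0 * q12 11) :=
    braid_letters (by decide +kernel)
  have hb : q12 0 * (q12 1 * q12 0) = q12 1 * (q12 0 * q12 1) :=
    braid_letters (by decide +kernel)
  have hkb : q12 1 * q12 11 = q12 11 * q12 1 := comm_letters (by decide +kernel)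
  have hlb : q12 1 * q12 10 = q12 10 * q12 1 := comm_letters (by decide +kernel)
  simp only [gW, List.reverse_cons, List.reverse_nil, List.nil_append, List.cons_append,
    gword_cons, gword_nil, mul_one]
  suffices e : q12 11 * (q12 10 * (q12 0 * (q12 11 * (q12 1 * (q12 0 * (q12 11 * (q12 0 * (q12 1 *
      (q12 11 * (q12 0 * (q12 10 * q12 11))))))))))) = q12 1 by rw [e]; exact q12_mem_HC (by omega)
  calc q12 11 * (q12 10 * (q12 0 * (q12 11 * (q12 1 * (q12 0 * (q12 11 * (q12 0 * (q12 1 *
        (q12 11 * (q12 0 * (q12 10 * q12 11)))))))))))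
      = q12 11 * (q12 10 * (q12 0 * (q12 11 * (q12 1 * ((q12 0 * (q12 11 * q12 0)) * (q12 1 *
        (q12 11 * (q12 0 * (q12 10 * q12 11))))))))) := by simp only [mul_assoc]
    _ = q12 11 * (q12 10 * (q12 0 * (q12 11 * ((q12 1 * q12 11) * (q12 0 * ((q12 11 * q12 1) *
        (q12 11 * (q12 0 * (q12 10 * q12 11))))))))) := by rw [hk]; simp only [mul_assoc]
    _ = q12 11 * (q12 10 * (q12 0 * ((q12 11 * q12 11) * (q12 1 * (q12 0 * ((q12 1 * (q12 11 *
        q12 11)) * (q12 0 * (q12 10 * q12 11)))))))) := by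
      rw [← hkb]; nth_rewrite 1 [hkb]; simp only [mul_assoc]
    _ = q12 11 * (q12 10 * (q12 0 * ((q12 1 * (q12 0 * q12 1)) * (q12 0 * (q12 10 * q12 11))))) := by
      rw [kk, one_mul, mul_one]; simp only [mul_assoc]
    _ = q12 11 * (q12 10 * (q12 1 * (q12 10 * q12 11))) := by
      rw [← hb]; simp only [mul_assoc, cut]
    _ = q12 1 := by
      rw [← mul_assoc (q12 1) (q12 10) (q12 11), hlb, mul_assoc, cut, hkb, cut]

theorem id7 : Same (vMid ++ [11]) (11 :: (uMid ++ [11])) :=
  Same.of_word (by exact mid_mem)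

variable (h : ChecksOK)
include h

theorem mem_MgC {a : Cov} (ha : a ∈ HC) (hm : proj a ∈ Fi24.Mg) : a ∈ MgC := by
  have hle : Fi24.Mg ≤ MgC.map proj := by
    rw [Fi24.Mg, lsub, Subgroup.closure_le]
    rintro _ ⟨x, hx, rfl⟩
    exact ⟨q12 x, Subgroup.subset_closure ⟨x, hx, rfl⟩, proj_q12 x⟩
  obtain ⟨m, hm', e⟩ := hle hm
  rwa [HC_inj h ha (MgC_le hm') e.symm]

omit h in
theorem X4C_le : X4C ≤ HC := by
  refine sup_le ?_ (Subgroup.zpowers_le.2 (gword_mem_HC (by decide)))
  rw [lsub, Subgroup.closure_le]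
  rintro _ ⟨x, hx, rfl⟩
  exact q12_mem_HC ((show ∀ x ∈ [0, 2, 3, 4, 5, 6, 7, 8, 9, 10], x < 11 by decide) x hx)

theorem conj_fix4C {a : Cov} (ha : a ∈ HC) (h4 : act h (proj a) (pt 4) = pt 4) :
    (gword q12 gW)⁻¹ * a * gword q12 gW ∈ HC := by
  have hin : proj a ∈ Fi24.Hs := by
    obtain ⟨u, rfl | rfl⟩ := HC_cases ha
    · rw [proj_psiC]; exact Fi24.psi_mem_Hs u
    · rw [map_mul, proj_psiC, proj_q12]
      exact mul_mem (Fi24.psi_mem_Hs u) (Fi24.g12_mem_Hs (by omega))
  have hx : proj a ∈ Fi24.X4 := fix4_eq h ▸ ⟨hin, h4⟩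
  have hle : Fi24.X4 ≤ X4C.map proj := by
    rw [Fi24.X4, X4C, Subgroup.map_sup]
    refine sup_le_sup ?_ ?_
    · rw [lsub, Subgroup.closure_le]
      rintro _ ⟨x, hx, rfl⟩
      exact ⟨q12 x, Subgroup.subset_closure ⟨x, hx, rfl⟩, proj_q12 x⟩
    · rw [MonoidHom.map_zpowers, proj_gword]
  obtain ⟨m, hm, e⟩ := hle hx
  rw [HC_inj h ha (X4C_le hm) e.symm]
  exact conj_X4C hm

omit h in
/-- the test for a word to lie in the subgroup of nine letters -/
noncomputable def inMg (d : List ℕ) : Bool :=
  d.all (fun x => Nat.blt x 11) && Nat.beq (runL d 1) 1 && Nat.beq (lab (runL d 6)) 5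

omit h in
/-- the test for a word to fix the fourth point -/
noncomputable def inX4 (d : List ℕ) : Bool :=
  d.all (fun x => Nat.blt x 11) && Nat.beq (runL d 4) 4

theorem inMg_mem {d : List ℕ} (hd : inMg d = true) : gword q12 d ∈ MgC := by
  simp only [inMg, Bool.and_eq_true, Nat.beq_eq, List.all_eq_true, Nat.blt, Nat.ble_eq] at hd
  obtain ⟨⟨hs, h1⟩, h5⟩ := hd
  refine mem_MgC h (gword_mem_HC fun x hx => hs x hx) ?_
  rw [proj_gword]
  exact mem_Mg h (Fi24.gword_mem_Hs fun x hx => hs x hx) (Fin.ext (by rw [act_val]; exact h1))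
    (by rw [act_val]; exact h5)

theorem fixK {a b : List ℕ} (hd : inMg (a.reverse ++ b) = true) : Same (a ++ [11]) (b ++ [11]) := by
  have hm : gword q12 (a.reverse ++ b) ∈ MgC := inMg_mem h hd
  show _ ∈ HC
  rw [wapp, wapp, wone, mul_inv_rev, mul_assoc, ← mul_assoc _⁻¹ (gword q12 b), ← wrev q12_inv a,
    ← wapp, MgC_comm_k hm, inv_mul_cancel_left]
  exact MgC_le hm

theorem fixG {a b : List ℕ} (hd : inX4 (a.reverse ++ b) = true) : Same (a ++ gW) (b ++ gW) := by
  simp only [inX4, Bool.and_eq_true, Nat.beq_eq, List.all_eq_true, Nat.blt, Nat.ble_eq] at hd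
  obtain ⟨hs, h4⟩ := hd
  have hm := conj_fix4C h (gword_mem_HC fun x hx => hs x hx)
    (show act h (proj (gword q12 (a.reverse ++ b))) (pt 4) = pt 4 from
      Fin.ext (by rw [proj_gword, act_val]; exact h4))
  show _ ∈ HC
  rw [wapp, wrev q12_inv] at hm
  rw [wapp, wapp, mul_inv_rev]
  simpa only [mul_assoc] using hm

omit h in
theorem comm_kM {m : List ℕ} (hm : m.all (fun x => L9.contains x) = true) (w : List ℕ) :
    gword q12 (11 :: (m ++ w)) = gword q12 (m ++ (11 :: w)) := by
  rw [gword_cons, wapp, wapp, gword_cons, ← mul_assoc, ← mul_assoc]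
  congr 1
  exact (MgC_comm_k (lsub_word fun x hx =>
    List.contains_iff_mem.1 (List.all_eq_true.1 hm x hx))).symm

omit h in
/-- one step through `k` -/
theorem step {done hh rep m u u2 rep2 : List ℕ} (hs : Same (hh ++ rep) done)
    (hm : m.all (fun x => L9.contains x) = true) (hfix : Same ((m ++ u) ++ rep) (hh ++ rep))
    (hid : Same (u2 ++ rep2) (11 :: (u ++ rep))) : Same ((m ++ u2) ++ rep2) (11 :: done) := by
  refine Same.trans ?_ ((hfix.trans hs).pre [11])
  rw [List.append_assoc m u2, List.append_assoc m u]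
  refine Same.trans (hid.pre m) ?_
  show _ ∈ HC
  rw [show ([11] ++ (m ++ (u ++ rep))) = 11 :: (m ++ (u ++ rep)) from rfl, comm_kM hm, inv_mul_cancel]
  exact one_mem _

theorem stepK {done hh m u u2 rep2 : List ℕ} (hs : Same (hh ++ [11]) done)
    (hm : m.all (fun x => L9.contains x) = true) (hd : inMg ((m ++ u).reverse ++ hh) = true)
    (hid : Same (u2 ++ rep2) (11 :: (u ++ [11]))) : Same ((m ++ u2) ++ rep2) (11 :: done) :=
  step hs hm (fixK h hd) hid

theorem stepG {done hh m u u2 rep2 : List ℕ} (hs : Same (hh ++ gW) done)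
    (hm : m.all (fun x => L9.contains x) = true) (hd : inX4 ((m ++ u).reverse ++ hh) = true)
    (hid : Same (u2 ++ rep2) (11 :: (u ++ gW))) : Same ((m ++ u2) ++ rep2) (11 :: done) :=
  step hs hm (fixG h hd) hid

omit h in
/-- the first step through `k` -/
theorem stepBase {done : List ℕ} (hd : done.all (fun x => Nat.blt x 11) = true) :
    Same ([] ++ [11]) (11 :: done) :=
  (Same.of_small hd).pre [11]



end CfsgLib.Fi24Mult30
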