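import Cfsg.Agent.CosetEnum.Fi24.Perm
import Cfsg.Agent.Fi24Mult30.Pres
import Cfsg.Agent.Fi24Mult30.Table

/-!
The triple covering of the 306936 points given by the voltages: an image of the presentation of
Fi24 without the seventeenth power relator in which the dropped relator is not trivial and is
centralised by the even words.
-/

set_option autoImplicit false
set_option maxRecDepth 8000

namespace CfsgLib.Fi24Mult30

open CfsgLib.CosetEnum
open CfsgLib.CosetEnum.Fi24 (cW wrev wone wapp lW chainL lbl pair_cases pow_pair pow_braid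
  comm_of_swap gword_replicate)
open CfsgLib.CosetEnum.Fi24.Tab (npts tx)

/-- the checked equations of the voltages -/
structure VOK : Prop where
  chain : ∀ i < npts, Tab.checkVChain i = true
  branch : ∀ i < npts, Tab.checkVBranch i = true

/-! ### Coxeter relations from a chain -/

section Abstract

variable {G : Type*} [Group G] (s : ℕ → G) (C : G)

theorem chain_conj (hstep : ∀ m < 9, s (chainL.getD (m + 1) 12) = C * s (chainL.getD m 12) * C⁻¹) :
    ∀ {m : ℕ}, m < 10 → s (chainL.getD m 12) = C ^ m * s 10 * (C ^ m)⁻¹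
  | 0, _ => by rw [pow_zero, one_mul, inv_one, mul_one]; rfl
  | m + 1, hm => by
    rw [hstep m (by omega), chain_conj hstep (show m < 10 by omega), pow_succ', mul_inv_rev]
    simp only [mul_assoc]

theorem coxeter_of_chain (hsq : ∀ x, s x * s x = 1)
    (hstep : ∀ m < 9, s (chainL.getD (m + 1) 12) = C * s (chainL.getD m 12) * C⁻¹)
    (hC : C ^ 11 = 1) (hb : s 10 * s 11 * s 10 = s 11 * s 10 * s 11)
    (hc0 : ∀ x < 4, s 10 * s x = s x * s 10) (h8 : Commute (s 8) (s 10)) (h8C : Commute (s 8) C)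
    (h7c : ∀ x ∈ [10, 11, 0, 1, 2, 4, 5, 6, 9], s 7 * s x = s x * s 7)
    (h7b : ∀ x ∈ [3, 8], s 7 * s x * s 7 = s x * s 7 * s x) :
    ∀ x < 12, ∀ y < 12, (s x * s y) ^ lbl x y = 1 := by
  have conj := fun {m : ℕ} (hm : m < 10) => chain_conj s C hstep hm
  have base : ∀ {d : ℕ}, 2 ≤ d → d < 6 →
      s 10 * s (chainL.getD d 12) = s (chainL.getD d 12) * s 10 := by
    intro d hd hd6
    interval_cases d
    exacts [hc0 0 (by omega), hc0 1 (by omega), hc0 2 (by omega), hc0 3 (by omega)]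
  have comm0 : ∀ {m : ℕ}, 2 ≤ m → m < 10 →
      s 10 * s (chainL.getD m 12) = s (chainL.getD m 12) * s 10 := by
    intro m h2 hm
    by_cases h6 : m < 6
    · exact base h2 h6
    have hb' := base (d := 11 - m) (by omega) (by omega)
    rw [conj (show 11 - m < 10 by omega)] at hb'
    rw [conj hm]
    have hCi : C ^ (11 - m) = (C ^ m)⁻¹ := eq_inv_of_mul_eq_one_left (by
      rw [← pow_add, show 11 - m + m = 11 by omega, hC])
    rw [hCi, inv_inv] at hb'
    set D := C ^ m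
    set X := s 10
    calc X * (D * X * D⁻¹) = D * ((D⁻¹ * X * D) * X) * D⁻¹ := by group
      _ = D * (X * (D⁻¹ * X * D)) * D⁻¹ := by rw [← hb']
      _ = D * X * D⁻¹ * X := by group
  have cpair : ∀ {m d : ℕ}, m + d < 10 →
      (s (chainL.getD m 12) * s (chainL.getD (m + d) 12)) ^
        (if d = 0 then 1 else if d = 1 then 3 else 2) = 1 := by
    intro m d hmd
    have key : s (chainL.getD m 12) * s (chainL.getD (m + d) 12) =
        C ^ m * (s 10 * s (chainL.getD d 12)) * (C ^ m)⁻¹ := by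
      rw [conj (show m < 10 by omega), conj hmd, conj (show d < 10 by omega), pow_add]
      group
    rw [key, conj_pow]
    suffices hh : (s 10 * s (chainL.getD d 12)) ^ (if d = 0 then 1 else if d = 1 then 3 else 2) = 1 by
      rw [hh, mul_one, mul_inv_cancel]
    split_ifs with h0 h1
    · subst h0
      rw [pow_one]
      exact hsq 10
    · subst h1
      exact pow_braid (hsq _) (hsq _) hb
    · exact pow_pair (hsq _) (hsq _) (comm0 (by omega) (by omega))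
  have c8 : ∀ {y : ℕ}, y ∈ chainL → (s 8 * s y) ^ 2 = 1 := by
    intro y hy
    obtain ⟨m, hm, rfl⟩ := List.getElem_of_mem hy
    refine pow_pair (hsq _) (hsq _) ?_
    rw [← List.getD_eq_getElem _ 12 hm, conj (show m < 10 from hm)]
    exact ((h8C.pow_right m).mul_right h8).mul_right (h8C.pow_right m).inv_right
  have sw := fun {a b : ℕ} {k : ℕ} (e : (s a * s b) ^ k = 1) => comm_of_swap (hsq a) (hsq b) e
  have c7 := fun {y : ℕ} (hy : y ∈ [10, 11, 0, 1, 2, 4, 5, 6, 9]) =>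
    pow_pair (hsq 7) (hsq y) (h7c y hy)
  have b7 := fun {y : ℕ} (hy : y ∈ [3, 8]) => pow_braid (hsq 7) (hsq y) (h7b y hy)
  intro x hx y hy
  rcases pair_cases _ hx _ hy with ⟨rfl, m, e⟩ | ⟨rfl, m, e⟩ | ⟨rfl, m, e⟩ | ⟨rfl, m, e⟩ |
    ⟨rfl, m, e⟩ | ⟨rfl, m, e⟩ | ⟨rfl, e⟩ | ⟨m, -, d, -, hmd, e, ⟨rfl, rfl⟩ | ⟨rfl, rfl⟩⟩
  all_goals rw [e]
  exacts [c7 m, b7 m, c8 m, sw (c7 m), sw (b7 m), sw (c8 m), by rw [pow_one, hsq],
    cpair hmd, sw (cpair hmd)]

end Abstract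

theorem preW_forms : preW.all (fun w => (List.range 12).any (fun x => (List.range 12).any fun y =>
    w == (List.replicate (lbl x y) [x, y]).flatten) || w == 10 :: lW.reverse) = true := by
  decide +kernel

/-! ### The covering -/

/-- the voltage of a letter -/
noncomputable def vv : ℕ → ℕ → ℕ
  | 0 => Tab.v0 | 1 => Tab.v1 | 2 => Tab.v2 | 3 => Tab.v3 | 4 => Tab.v4 | 5 => Tab.v5
  | 6 => Tab.v6 | 7 => Tab.v7 | 8 => Tab.v8 | 9 => Tab.v9 | 10 => Tab.v10 | 11 => Tab.v11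
  | _ => fun _ => 0

theorem tx_lt : tx 0 = Fi24.Tab.t0 ∧ tx 1 = Fi24.Tab.t1 ∧ tx 2 = Fi24.Tab.t2 ∧
    tx 3 = Fi24.Tab.t3 ∧ tx 4 = Fi24.Tab.t4 ∧ tx 5 = Fi24.Tab.t5 ∧ tx 6 = Fi24.Tab.t6 ∧
    tx 7 = Fi24.Tab.t7 ∧ tx 8 = Fi24.Tab.t8 ∧ tx 9 = Fi24.Tab.t9 ∧ tx 10 = Fi24.Tab.t10 ∧
    tx 11 = Fi24.Tab.t11 := by
  simp [tx, Nat.blt, Nat.ble]

theorem cast_sub3 (a b : ℕ) : ((Tab.sub3 a b : ℕ) : ZMod 3) = (a : ZMod 3) - b := by
  show (((a + 2 * b) % 3 : ℕ) : ZMod 3) = _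
  rw [ZMod.natCast_mod, Nat.cast_add, Nat.cast_mul, sub_eq_add_neg,
    show ((2 : ℕ) : ZMod 3) = -1 by decide, neg_one_mul]

theorem cast_add3 (a b : ℕ) : ((Tab.add3 a b : ℕ) : ZMod 3) = (a : ZMod 3) + b := by
  show (((a + b) % 3 : ℕ) : ZMod 3) = _
  rw [ZMod.natCast_mod, Nat.cast_add]

theorem cast_eq_of_beq {a b : ℕ} (h : Nat.beq a b = true) : (a : ZMod 3) = b := by
  rw [Nat.eq_of_beq_eq_true h]

theorem cast_natMod (a : ℕ) : ((Nat.mod a 3 : ℕ) : ZMod 3) = a := ZMod.natCast_mod a 3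

/-- the move of a letter on numbers with a residue -/
noncomputable def st (x : ℕ) (q : ℕ × ZMod 3) : ℕ × ZMod 3 :=
  if x < 12 then (tx x q.1, (vv x q.1 : ZMod 3) - q.2) else q

/-- the move of a word -/
noncomputable def stW (w : List ℕ) (q : ℕ × ZMod 3) : ℕ × ZMod 3 := w.foldr st q

/-- a point of the covering as a number with a residue -/
def emb (p : Fin npts × ZMod 3) : ℕ × ZMod 3 := (p.1, p.2)

theorem emb_injective : Function.Injective emb := fun _ _ h =>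
  Prod.ext (Fin.ext (congrArg Prod.fst h :)) (congrArg Prod.snd h :)

theorem emb_eq {p : Fin npts × ZMod 3} {i : ℕ} {a : ZMod 3} (h : emb p = (i, a)) :
    (p.1 : ℕ) = i ∧ p.2 = a :=
  Prod.mk.injEq _ _ _ _ ▸ h

variable (h : Fi24.TabOK) (hv : VOK)
include h hv

omit h in
theorem vinv_at {x : ℕ} (hx : x < 12) {i : ℕ} (hi : i < npts) :
    (vv x (tx x i) : ZMod 3) = vv x i := by
  have hc := hv.chain i hi
  simp only [Tab.checkVChain, Bool.and_eq_true, Tab.vinv] at hc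
  obtain ⟨⟨⟨⟨⟨⟨⟨⟨⟨⟨⟨⟨⟨⟨⟨⟨⟨⟨⟨⟨⟨⟨⟨⟨⟨⟨⟨⟨⟨i0, i1⟩, i2⟩, i3⟩, i4⟩, i5⟩, i6⟩, i7⟩, i8⟩, i9⟩,
    i10⟩, i11⟩, -⟩, -⟩, -⟩, -⟩, -⟩, -⟩, -⟩, -⟩, -⟩, -⟩, -⟩, -⟩, -⟩, -⟩, -⟩, -⟩, -⟩, -⟩ := hc
  obtain ⟨e0, e1, e2, e3, e4, e5, e6, e7, e8, e9, e10, e11⟩ := tx_lt
  have key : ∀ {f v : ℕ → ℕ}, Nat.beq (Tab.sub3 (v (f i)) (v i)) 0 = true →
      (v (f i) : ZMod 3) = v i := fun hh => by
    have := cast_eq_of_beq hh
    rwa [cast_sub3, Nat.cast_zero, sub_eq_zero] at this
  interval_cases x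
  all_goals simp only [vv, e0, e1, e2, e3, e4, e5, e6, e7, e8, e9, e10, e11]
  exacts [key i0, key i1, key i2, key i3, key i4, key i5, key i6, key i7, key i8, key i9, key i10,
    key i11]

/-- a letter on the covering -/
noncomputable def cov (x : ℕ) : Equiv.Perm (Fin npts × ZMod 3) :=
  if hx : x < 12 then
    { toFun := fun p => (Fi24.sig h x p.1, (vv x p.1 : ZMod 3) - p.2)
      invFun := fun p => (Fi24.sig h x p.1, (vv x p.1 : ZMod 3) - p.2)
      left_inv := fun p => emb_injective (by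
        simp only [emb, Fi24.sig_val, (Fi24.invol_tx h hx p.1.2).2, vinv_at hv hx p.1.2,
          sub_sub_cancel])
      right_inv := fun p => emb_injective (by
        simp only [emb, Fi24.sig_val, (Fi24.invol_tx h hx p.1.2).2, vinv_at hv hx p.1.2,
          sub_sub_cancel]) }
  else 1

theorem cov_inv (x : ℕ) : cov h hv x = (cov h hv x)⁻¹ := by
  by_cases hx : x < 12
  · rw [cov, dif_pos hx]
    rfl
  · rw [cov, dif_neg hx, inv_one]

theorem cov_sq (x : ℕ) : cov h hv x * cov h hv x = 1 := by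
  nth_rewrite 2 [cov_inv h hv x]
  rw [mul_inv_cancel]

theorem cov_val (x : ℕ) (p : Fin npts × ZMod 3) : emb (cov h hv x p) = st x (emb p) := by
  by_cases hx : x < 12
  · rw [cov, dif_pos hx, st, if_pos hx]
    exact Prod.ext (Fi24.sig_val h x p.1) rfl
  · rw [cov, dif_neg hx, st, if_neg hx]
    rfl

theorem gword_cov_val (w : List ℕ) (p : Fin npts × ZMod 3) :
    emb (gword (cov h hv) w p) = stW w (emb p) := by
  induction w with
  | nil => rw [gword_nil]; rfl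
  | cons x w ih => rw [gword_cons, Equiv.Perm.mul_apply, cov_val, ih]; rfl

/-- the product along the chain -/
noncomputable def cC : Equiv.Perm (Fin npts × ZMod 3) := gword (cov h hv) chainL

theorem vchain_at {i : ℕ} (hi : i < npts) :
    (∀ a : ZMod 3, stW chainL (i, a) = (Fi24.Tab.tc i, (Tab.vc i : ZMod 3) + a)) ∧
    (∀ m < 9, (vv (chainL.getD (m + 1) 12) (Fi24.Tab.tc i) : ZMod 3) - Tab.vc i =
      Tab.vc (tx (chainL.getD m 12) i) + vv (chainL.getD m 12) i) ∧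
    (Tab.vc2 i : ZMod 3) = Tab.vc (Fi24.Tab.tc i) + Tab.vc i ∧
    (Tab.vc4 i : ZMod 3) = Tab.vc2 (Fi24.Tab.tc2 i) + Tab.vc2 i ∧
    (Tab.vc4 (Fi24.Tab.tc4 (Fi24.Tab.tc2 (Fi24.Tab.tc i))) : ZMod 3) +
      (Tab.vc4 (Fi24.Tab.tc2 (Fi24.Tab.tc i)) + (Tab.vc2 (Fi24.Tab.tc i) + Tab.vc i)) = 0 ∧
    ((vv 10 (tx 11 (tx 10 i)) : ZMod 3) - (vv 11 (tx 10 i) - vv 10 i) =
      vv 11 (tx 10 (tx 11 i)) - (vv 10 (tx 11 i) - vv 11 i)) ∧
    ∀ x < 4, (vv 10 (tx x i) : ZMod 3) - vv x i = vv x (tx 10 i) - vv 10 i := by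
  have hc := hv.chain i hi
  simp only [Tab.checkVChain, Bool.and_eq_true, Tab.vbraid, Tab.vcomm, Tab.vstep] at hc
  obtain ⟨⟨⟨⟨⟨⟨⟨⟨⟨⟨⟨⟨⟨⟨⟨⟨⟨⟨-, hvc⟩, k1⟩, k2⟩, k3⟩, k4⟩, k5⟩, k6⟩, k7⟩, k8⟩, k9⟩, hc2⟩, hc4⟩,
    hc11⟩, hb⟩, m0⟩, m1⟩, m2⟩, m3⟩ := hc
  obtain ⟨e0, e1, e2, e3, e4, e5, e6, e7, e8, e9, e10, e11⟩ := tx_lt
  refine ⟨fun a => ?_, fun m hm => ?_, ?_, ?_, ?_, ?_, fun x hx => ?_⟩
  · have := cast_eq_of_beq hvc
    simp only [cast_sub3, cast_natMod] at this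
    have htc := (Fi24.chain_at h hi).1
    simp only [chainL, Fi24.runL_cons, Fi24.runL_nil, e0, e1, e2, e3, e4, e5, e6, e9, e10, e11]
      at htc
    simp only [stW, chainL, List.foldr_cons, List.foldr_nil, st, Nat.reduceLT, if_true, vv, e0, e1,
      e2, e3, e4, e5, e6, e9, e10, e11]
    rw [htc, this, Prod.mk.injEq]
    exact ⟨rfl, by ring⟩
  · have key : ∀ {f v w : ℕ → ℕ},
        Nat.beq (Tab.sub3 (w (Fi24.Tab.tc i)) (Tab.vc i)) (Tab.add3 (Tab.vc (f i)) (v i)) = true →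
        (w (Fi24.Tab.tc i) : ZMod 3) - Tab.vc i = Tab.vc (f i) + v i := fun hh => by
      have := cast_eq_of_beq hh
      rwa [cast_sub3, cast_add3] at this
    interval_cases m
    all_goals simp only [chainL, List.getD_cons_succ, List.getD_cons_zero, vv, e0, e1, e2, e3, e4,
      e5, e6, e9, e10, e11]
    exacts [key k1, key k2, key k3, key k4, key k5, key k6, key k7, key k8, key k9]
  · have := cast_eq_of_beq hc2
    rwa [cast_natMod, cast_add3] at this
  · have := cast_eq_of_beq hc4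
    rwa [cast_natMod, cast_add3] at this
  · have := cast_eq_of_beq hc11
    rwa [cast_add3, cast_add3, cast_add3, Nat.cast_zero] at this
  · have := cast_eq_of_beq hb
    simpa only [cast_sub3, vv, e10, e11] using this
  · have key : ∀ {f g v w : ℕ → ℕ},
        Nat.beq (Tab.sub3 (v (g i)) (w i)) (Tab.sub3 (w (f i)) (v i)) = true →
        (v (g i) : ZMod 3) - w i = w (f i) - v i := fun hh => by
      have := cast_eq_of_beq hh
      rwa [cast_sub3, cast_sub3] at this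
    interval_cases x
    all_goals simp only [vv, e0, e1, e2, e3, e10]
    exacts [key m0, key m1, key m2, key m3]

theorem vbranch_at {i : ℕ} (hi : i < npts) :
    ((vv 8 (tx 10 i) : ZMod 3) - vv 10 i = vv 10 (tx 8 i) - vv 8 i) ∧
    ((vv 8 (Fi24.Tab.tc i) : ZMod 3) - Tab.vc i = Tab.vc (tx 8 i) + vv 8 i) ∧
    (∀ x ∈ [10, 11, 0, 1, 2, 4, 5, 6, 9],
      (vv 7 (tx x i) : ZMod 3) - vv x i = vv x (tx 7 i) - vv 7 i) ∧
    (∀ x ∈ [3, 8], (vv 7 (tx x (tx 7 i)) : ZMod 3) - (vv x (tx 7 i) - vv 7 i) =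
      vv x (tx 7 (tx x i)) - (vv 7 (tx x i) - vv x i)) ∧
    (∀ a : ZMod 3, stW [0, 1, 2, 3, 4, 5, 7] (i, a) = (Fi24.Tab.tw i, (Tab.vw i : ZMod 3) - a)) ∧
    (Tab.vw3 i : ZMod 3) =
      Tab.vw (Fi24.Tab.tw (Fi24.Tab.tw i)) - (Tab.vw (Fi24.Tab.tw i) - Tab.vw i) ∧
    (vv 10 i : ZMod 3) =
      Tab.vw3 (Fi24.Tab.tw3 (Fi24.Tab.tw3 i)) - (Tab.vw3 (Fi24.Tab.tw3 i) - Tab.vw3 i) ∧
    (∀ a : ZMod 3, stW [3, 2, 1, 0, 11, 10, 3, 4, 5, 6, 9, 3, 7, 8] (i, a) =
      (Fi24.Tab.tp i, (Tab.vp i : ZMod 3) + a)) ∧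
    (Tab.vp2 i : ZMod 3) = Tab.vp (Fi24.Tab.tp i) + Tab.vp i ∧
    (Tab.vp4 i : ZMod 3) = Tab.vp2 (Fi24.Tab.tp2 i) + Tab.vp2 i ∧
    (Tab.vp8 i : ZMod 3) = Tab.vp4 (Fi24.Tab.tp4 i) + Tab.vp4 i ∧
    (Tab.vp8 (Fi24.Tab.tp8 (Fi24.Tab.tp i)) : ZMod 3) +
      (Tab.vp8 (Fi24.Tab.tp i) + Tab.vp i) = 1 := by
  have hc := hv.branch i hi
  simp only [Tab.checkVBranch, Bool.and_eq_true, Tab.vbraid, Tab.vcomm, Tab.vstep] at hc
  obtain ⟨⟨⟨⟨⟨⟨⟨⟨⟨⟨⟨⟨⟨⟨⟨⟨⟨⟨⟨⟨a1, a2⟩, b1⟩, b2⟩, b3⟩, b4⟩, b5⟩, b6⟩, b7⟩, b8⟩, b9⟩, r1⟩, r2⟩,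
    f0⟩, g0⟩, g1⟩, p0⟩, p1⟩, p2⟩, p3⟩, p4⟩ := hc
  obtain ⟨e0, e1, e2, e3, e4, e5, e6, e7, e8, e9, e10, e11⟩ := tx_lt
  refine ⟨?_, ?_, fun x hx => ?_, fun x hx => ?_, fun a => ?_, ?_, ?_, fun a => ?_, ?_, ?_, ?_, ?_⟩
  · simpa only [cast_sub3, vv, e8, e10] using cast_eq_of_beq a1
  · simpa only [cast_sub3, cast_add3, vv, e8] using cast_eq_of_beq a2
  · have key : ∀ {f g v w : ℕ → ℕ},
        Nat.beq (Tab.sub3 (v (g i)) (w i)) (Tab.sub3 (w (f i)) (v i)) = true →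
        (v (g i) : ZMod 3) - w i = w (f i) - v i := fun hh => by
      have := cast_eq_of_beq hh
      rwa [cast_sub3, cast_sub3] at this
    simp only [List.mem_cons, List.not_mem_nil, or_false] at hx
    rcases hx with rfl | rfl | rfl | rfl | rfl | rfl | rfl | rfl | rfl
    all_goals simp only [vv, e0, e1, e2, e4, e5, e6, e7, e9, e10, e11]
    exacts [key b1, key b2, key b3, key b4, key b5, key b6, key b7, key b8, key b9]
  · have key : ∀ {f g v w : ℕ → ℕ},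
        Nat.beq (Tab.sub3 (v (g (f i))) (Tab.sub3 (w (f i)) (v i)))
          (Tab.sub3 (w (f (g i))) (Tab.sub3 (v (g i)) (w i))) = true →
        (v (g (f i)) : ZMod 3) - (w (f i) - v i) = w (f (g i)) - (v (g i) - w i) := fun hh => by
      have := cast_eq_of_beq hh
      simpa only [cast_sub3] using this
    simp only [List.mem_cons, List.not_mem_nil, or_false] at hx
    rcases hx with rfl | rfl
    all_goals simp only [vv, e3, e7, e8]
    exacts [key r1, key r2]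
  · have := cast_eq_of_beq f0
    simp only [cast_sub3, cast_natMod] at this
    have htw := (Fi24.branch_at h hi).2.2.2.2.1
    simp only [Fi24.runL_cons, Fi24.runL_nil, e0, e1, e2, e3, e4, e5, e7] at htw
    simp only [stW, List.foldr_cons, List.foldr_nil, st, Nat.reduceLT, if_true, vv, e0, e1, e2, e3,
      e4, e5, e7]
    rw [htw, this, Prod.mk.injEq]
    exact ⟨rfl, by ring⟩
  · have := cast_eq_of_beq g0
    simpa only [cast_sub3, cast_natMod] using this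
  · have := cast_eq_of_beq g1
    simpa only [cast_sub3, cast_natMod, vv] using this
  · have := cast_eq_of_beq p0
    simp only [cast_sub3, cast_natMod] at this
    have htp := (Fi24.branch_at h hi).2.2.2.2.2.2.2.1
    simp only [Fi24.runL_cons, Fi24.runL_nil, e0, e1, e2, e3, e4, e5, e6, e7, e8, e9, e10, e11]
      at htp
    simp only [stW, List.foldr_cons, List.foldr_nil, st, Nat.reduceLT, if_true, vv, e0, e1, e2, e3,
      e4, e5, e6, e7, e8, e9, e10, e11]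
    rw [htp, this, Prod.mk.injEq]
    exact ⟨rfl, by ring⟩
  · have := cast_eq_of_beq p1
    rwa [cast_natMod, cast_add3] at this
  · have := cast_eq_of_beq p2
    rwa [cast_natMod, cast_add3] at this
  · have := cast_eq_of_beq p3
    rwa [cast_natMod, cast_add3] at this
  · have := cast_eq_of_beq p4
    rwa [cast_add3, cast_add3, Nat.cast_one] at this

theorem cC_val (p : Fin npts × ZMod 3) :
    emb (cC h hv p) = (Fi24.Tab.tc p.1, (Tab.vc p.1 : ZMod 3) + p.2) := by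
  rw [cC, gword_cov_val]
  exact (vchain_at h hv p.1.2).1 p.2

theorem cC_step {m : ℕ} (hm : m < 9) :
    cov h hv (chainL.getD (m + 1) 12) =
      cC h hv * cov h hv (chainL.getD m 12) * (cC h hv)⁻¹ := by
  rw [eq_mul_inv_iff_mul_eq]
  refine Equiv.ext fun p => emb_injective ?_
  have hlt : chainL.getD (m + 1) 12 < 12 ∧ chainL.getD m 12 < 12 := by
    interval_cases m <;> simp [chainL]
  have e1 := (Fi24.chain_at h p.1.2).2.1 m hm
  have e2 := (vchain_at h hv p.1.2).2.1 m hm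
  have e3 := cov_val h hv (chainL.getD m 12) p
  rw [st, if_pos hlt.2] at e3
  have i3 : ((cov h hv (chainL.getD m 12) p).1 : ℕ) = tx (chainL.getD m 12) p.1 :=
    (emb_eq e3).1
  have a3 : (cov h hv (chainL.getD m 12) p).2 = (vv (chainL.getD m 12) p.1 : ZMod 3) - p.2 :=
    (emb_eq e3).2
  rw [Equiv.Perm.mul_apply, Equiv.Perm.mul_apply, cov_val, cC_val, cC_val, st, if_pos hlt.1]
  show (_, _) = (_, _)
  rw [e1, i3, a3, Prod.mk.injEq]
  refine ⟨rfl, ?_⟩
  rw [← add_sub_assoc, ← e2]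
  ring

theorem cC_pow : cC h hv ^ 11 = 1 := by
  refine Equiv.ext fun p => emb_injective ?_
  have h2 : ∀ q : Fin npts × ZMod 3,
      emb ((cC h hv ^ 2) q) = (Fi24.Tab.tc2 q.1, (Tab.vc2 q.1 : ZMod 3) + q.2) := fun q => by
    have e := cC_val h hv q
    rw [pow_two, Equiv.Perm.mul_apply, cC_val, (emb_eq e).1,
      (emb_eq e).2, (Fi24.chain_at h q.1.2).2.2.1, (vchain_at h hv q.1.2).2.2.1,
      add_assoc]
  have h4 : ∀ q : Fin npts × ZMod 3,
      emb ((cC h hv ^ 4) q) = (Fi24.Tab.tc4 q.1, (Tab.vc4 q.1 : ZMod 3) + q.2) := fun q => by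
    have e := h2 q
    rw [show (4 : ℕ) = 2 + 2 from rfl, pow_add, Equiv.Perm.mul_apply, h2, (emb_eq e).1,
      (emb_eq e).2, (Fi24.chain_at h q.1.2).2.2.2.1, (vchain_at h hv q.1.2).2.2.2.1,
      add_assoc]
  have e0 := cC_val h hv p
  have e3 := h2 (cC h hv p)
  rw [(emb_eq e0).1, (emb_eq e0).2] at e3
  have e7 := h4 ((cC h hv ^ 2) (cC h hv p))
  rw [(emb_eq e3).1, (emb_eq e3).2] at e7
  rw [show (11 : ℕ) = 4 + (4 + (2 + 1)) from rfl, pow_add, pow_add, pow_add, pow_one,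
    Equiv.Perm.mul_apply, Equiv.Perm.mul_apply, Equiv.Perm.mul_apply, h4,
    (emb_eq e7).1, (emb_eq e7).2]
  show _ = ((p.1 : ℕ), p.2)
  rw [(Fi24.chain_at h p.1.2).2.2.2.2.1, Prod.mk.injEq]
  refine ⟨rfl, ?_⟩
  have := (vchain_at h hv p.1.2).2.2.2.2.1
  linear_combination this

theorem cov_comm {x y : ℕ} (hx : x < 12) (hy : y < 12)
    (hf : ∀ i < npts, tx x (tx y i) = tx y (tx x i))
    (hs : ∀ i < npts, (vv x (tx y i) : ZMod 3) - vv y i = vv y (tx x i) - vv x i) :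
    cov h hv x * cov h hv y = cov h hv y * cov h hv x := by
  refine Equiv.ext fun p => emb_injective ?_
  simp only [Equiv.Perm.mul_apply, cov_val, st, if_pos hx, if_pos hy, Prod.mk.injEq]
  refine ⟨hf _ p.1.2, ?_⟩
  have := hs _ p.1.2
  show (vv x (tx y p.1) : ZMod 3) - ((vv y p.1 : ZMod 3) - p.2) =
    (vv y (tx x p.1) : ZMod 3) - ((vv x p.1 : ZMod 3) - p.2)
  linear_combination this

theorem cov_braid {x y : ℕ} (hx : x < 12) (hy : y < 12)
    (hf : ∀ i < npts, tx x (tx y (tx x i)) = tx y (tx x (tx y i)))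
    (hs : ∀ i < npts, (vv x (tx y (tx x i)) : ZMod 3) - (vv y (tx x i) - vv x i) =
      vv y (tx x (tx y i)) - (vv x (tx y i) - vv y i)) :
    cov h hv x * cov h hv y * cov h hv x = cov h hv y * cov h hv x * cov h hv y := by
  refine Equiv.ext fun p => emb_injective ?_
  simp only [Equiv.Perm.mul_apply, cov_val, st, if_pos hx, if_pos hy, Prod.mk.injEq]
  refine ⟨hf _ p.1.2, ?_⟩
  have := hs _ p.1.2
  show (vv x (tx y (tx x p.1)) : ZMod 3) -
      ((vv y (tx x p.1) : ZMod 3) - ((vv x p.1 : ZMod 3) - p.2)) =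
    (vv y (tx x (tx y p.1)) : ZMod 3) -
      ((vv x (tx y p.1) : ZMod 3) - ((vv y p.1 : ZMod 3) - p.2))
  linear_combination this

theorem cov_eight_cC : Commute (cov h hv 8) (cC h hv) := Equiv.ext fun p => emb_injective (by
  have e : emb (cov h hv 8 p) = (tx 8 p.1, (vv 8 p.1 : ZMod 3) - p.2) := by
    rw [cov_val, st, if_pos (by norm_num : 8 < 12)]
    rfl
  rw [Equiv.Perm.mul_apply, Equiv.Perm.mul_apply, cov_val, cC_val, cC_val, st,
    if_pos (by norm_num : 8 < 12), (emb_eq e).1, (emb_eq e).2]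
  show (_, _) = (_, _)
  rw [(Fi24.branch_at h p.1.2).2.1, Prod.mk.injEq]
  refine ⟨rfl, ?_⟩
  show (vv 8 (Fi24.Tab.tc p.1) : ZMod 3) - ((Tab.vc p.1 : ZMod 3) + p.2) =
    (Tab.vc (tx 8 p.1) : ZMod 3) + ((vv 8 p.1 : ZMod 3) - p.2)
  linear_combination (vbranch_at h hv p.1.2).2.1)

/-- the product of the seven letters -/
noncomputable def cW7 : Equiv.Perm (Fin npts × ZMod 3) := gword (cov h hv) [0, 1, 2, 3, 4, 5, 7]

/-- the product of the fourteen letters -/
noncomputable def cP14 : Equiv.Perm (Fin npts × ZMod 3) :=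
  gword (cov h hv) [3, 2, 1, 0, 11, 10, 3, 4, 5, 6, 9, 3, 7, 8]

theorem cov_l : cov h hv 10 = cW7 h hv ^ 9 := by
  have h1 : ∀ q : Fin npts × ZMod 3,
      emb (cW7 h hv q) = (Fi24.Tab.tw q.1, (Tab.vw q.1 : ZMod 3) - q.2) := fun q => by
    rw [cW7, gword_cov_val]
    exact (vbranch_at h hv q.1.2).2.2.2.2.1 q.2
  have h3 : ∀ q : Fin npts × ZMod 3,
      emb ((cW7 h hv ^ 3) q) = (Fi24.Tab.tw3 q.1, (Tab.vw3 q.1 : ZMod 3) - q.2) := fun q => by
    have e := h1 q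
    have e2 := h1 (cW7 h hv q)
    rw [(emb_eq e).1, (emb_eq e).2] at e2
    rw [pow_succ, pow_two, Equiv.Perm.mul_apply, Equiv.Perm.mul_apply, h1,
      (emb_eq e2).1, (emb_eq e2).2,
      (Fi24.branch_at h q.1.2).2.2.2.2.2.1, (vbranch_at h hv q.1.2).2.2.2.2.2.1, Prod.mk.injEq]
    exact ⟨rfl, by ring⟩
  refine Equiv.ext fun p => emb_injective ?_
  have e := h3 p
  have e2 := h3 ((cW7 h hv ^ 3) p)
  rw [(emb_eq e).1, (emb_eq e).2] at e2
  rw [show (9 : ℕ) = 3 + (3 + 3) from rfl, pow_add, pow_add, Equiv.Perm.mul_apply,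
    Equiv.Perm.mul_apply, h3, (emb_eq e2).1, (emb_eq e2).2, cov_val, st,
    if_pos (by norm_num : 10 < 12)]
  show (tx 10 p.1, (vv 10 p.1 : ZMod 3) - p.2) = (_, _)
  rw [(Fi24.branch_at h p.1.2).2.2.2.2.2.2.1, Prod.mk.injEq]
  refine ⟨rfl, ?_⟩
  show (vv 10 p.1 : ZMod 3) - p.2 = _
  rw [(vbranch_at h hv p.1.2).2.2.2.2.2.2.1]
  ring

theorem cP14_pow : cP14 h hv ^ 17 = (Equiv.refl (Fin npts)).prodCongr (Equiv.addRight (1 : ZMod 3)) := by
  have h1 : ∀ q : Fin npts × ZMod 3,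
      emb (cP14 h hv q) = (Fi24.Tab.tp q.1, (Tab.vp q.1 : ZMod 3) + q.2) := fun q => by
    rw [cP14, gword_cov_val]
    exact (vbranch_at h hv q.1.2).2.2.2.2.2.2.2.1 q.2
  have dbl : ∀ {k : ℕ} {f v g w : ℕ → ℕ},
      (∀ q : Fin npts × ZMod 3, emb ((cP14 h hv ^ k) q) = (f q.1, (v q.1 : ZMod 3) + q.2)) →
      (∀ i < npts, g i = f (f i) ∧ (w i : ZMod 3) = v (f i) + v i) →
      ∀ q : Fin npts × ZMod 3, emb ((cP14 h hv ^ (k + k)) q) = (g q.1, (w q.1 : ZMod 3) + q.2) := by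
    intro k f v g w hk he q
    have e := hk q
    rw [pow_add, Equiv.Perm.mul_apply, hk, (emb_eq e).1, (emb_eq e).2,
      (he _ q.1.2).1, (he _ q.1.2).2, add_assoc]
  have h2 := dbl (k := 1) (fun q => by rw [pow_one]; exact h1 q) fun i hi =>
    ⟨(Fi24.branch_at h hi).2.2.2.2.2.2.2.2.1, (vbranch_at h hv hi).2.2.2.2.2.2.2.2.1⟩
  have h4 := dbl h2 fun i hi =>
    ⟨(Fi24.branch_at h hi).2.2.2.2.2.2.2.2.2.1, (vbranch_at h hv hi).2.2.2.2.2.2.2.2.2.1⟩
  have h8 := dbl h4 fun i hi =>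
    ⟨(Fi24.branch_at h hi).2.2.2.2.2.2.2.2.2.2.1, (vbranch_at h hv hi).2.2.2.2.2.2.2.2.2.2.1⟩
  have h8' : ∀ q : Fin npts × ZMod 3, emb ((cP14 h hv ^ 8) q) =
      (Fi24.Tab.tp8 q.1, (Tab.vp8 q.1 : ZMod 3) + q.2) := h8
  refine Equiv.ext fun p => emb_injective ?_
  have e := h1 p
  have e8 := h8' (cP14 h hv p)
  rw [(emb_eq e).1, (emb_eq e).2] at e8
  rw [show (17 : ℕ) = 8 + (8 + 1) from rfl, pow_add, pow_add, pow_one, Equiv.Perm.mul_apply,
    Equiv.Perm.mul_apply, h8',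
    (emb_eq e8).1, (emb_eq e8).2]
  show _ = ((p.1 : ℕ), p.2 + 1)
  rw [(Fi24.branch_at h p.1.2).2.2.2.2.2.2.2.2.2.2.2, Prod.mk.injEq]
  refine ⟨rfl, ?_⟩
  linear_combination (vbranch_at h hv p.1.2).2.2.2.2.2.2.2.2.2.2.2

theorem cov_pair {x y : ℕ} (hx : x < 12) (hy : y < 12) :
    (cov h hv x * cov h hv y) ^ lbl x y = 1 := by
  refine coxeter_of_chain (cov h hv) (cC h hv) (cov_sq h hv) (fun m hm => cC_step h hv hm)
    (cC_pow h hv) ?_ ?_ ?_ (cov_eight_cC h hv) ?_ ?_ x hx y hy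
  · exact cov_braid h hv (by norm_num) (by norm_num) (fun i hi => (Fi24.chain_at h hi).2.2.2.2.2.1)
      fun i hi => (vchain_at h hv hi).2.2.2.2.2.1
  · exact fun x hx => cov_comm h hv (by norm_num) (by omega)
      (fun i hi => (Fi24.chain_at h hi).2.2.2.2.2.2 x hx)
      fun i hi => (vchain_at h hv hi).2.2.2.2.2.2 x hx
  · exact cov_comm h hv (by norm_num) (by norm_num) (fun i hi => (Fi24.branch_at h hi).1)
      fun i hi => (vbranch_at h hv hi).1
  · intro x hx'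
    have : x < 12 := by simp only [List.mem_cons, List.not_mem_nil, or_false] at hx'; omega
    exact cov_comm h hv (by norm_num) this (fun i hi => (Fi24.branch_at h hi).2.2.1 x hx')
      fun i hi => (vbranch_at h hv hi).2.2.1 x hx'
  · intro x hx'
    have : x < 12 := by simp only [List.mem_cons, List.not_mem_nil, or_false] at hx'; omega
    exact cov_braid h hv (by norm_num) this (fun i hi => (Fi24.branch_at h hi).2.2.2.1 x hx')
      fun i hi => (vbranch_at h hv hi).2.2.2.1 x hx'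

theorem cov_preW : ∀ w ∈ preW, gword (cov h hv) w = 1 := by
  intro w hw
  have := List.all_eq_true.1 preW_forms w hw
  simp only [Bool.or_eq_true, List.any_eq_true, List.mem_range, beq_iff_eq] at this
  rcases this with ⟨x, hx, y, hy, rfl⟩ | rfl
  · rw [gword_replicate, gword_cons, wone]
    exact cov_pair h hv hx hy
  · rw [gword_cons, wrev (cov_inv h hv), lW, gword_replicate, ← cW7, ← cov_l, mul_inv_cancel]

/-- the shift of every fibre -/
noncomputable def shift : Equiv.Perm (Fin npts × ZMod 3) :=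
  (Equiv.refl (Fin npts)).prodCongr (Equiv.addRight (1 : ZMod 3))

omit h hv in
theorem shift_apply (p : Fin npts × ZMod 3) : shift p = (p.1, p.2 + 1) := rfl

theorem cov_shift {x : ℕ} (hx : x < 12) :
    cov h hv x * shift * (cov h hv x)⁻¹ = shift⁻¹ := by
  rw [mul_inv_eq_iff_eq_mul, eq_inv_mul_iff_mul_eq]
  refine Equiv.ext fun p => ?_
  simp only [Equiv.Perm.mul_apply, shift_apply, cov, dif_pos hx, Equiv.coe_fn_mk]
  exact Prod.ext rfl (by ring)

/-- the map of the presentation into the permutations of the covering -/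
noncomputable def covLift : Pre →* Equiv.Perm (Fin npts × ZMod 3) :=
  preLift (cov h hv) (cov_inv h hv) (cov_preW h hv)

theorem covLift_zRel : covLift h hv zRel = shift := by
  rw [zRel, gword_map]
  have : gword (fun x => covLift h hv (p12 x)) cW = gword (cov h hv) cW :=
    gword_congr _ _ fun x hx => by
      have hlt : x < 12 := by
        have hall : cW.all (fun y => Nat.blt y 12) = true := by decide +kernel
        simpa [Nat.blt, Nat.ble_eq] using List.all_eq_true.1 hall x hx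
      exact preLift_p12 _ _ _ hlt
  rw [this, cW, gword_replicate, ← cP14, cP14_pow]
  rfl

theorem covLift_shift (a : Pre) :
    covLift h hv a * shift * (covLift h hv a)⁻¹ = shift ^ ((preParity a : ℤˣ) : ℤ) := by
  have ha : a ∈ Subgroup.closure {a | ∃ x < 12, p12 x = a} := by
    rw [closure_p12]
    exact Subgroup.mem_top a
  induction ha using Subgroup.closure_induction with
  | mem y hy =>
    obtain ⟨x, hx, rfl⟩ := hy
    rw [covLift, preLift_p12 _ _ _ hx, preParity_p12 hx, Units.val_neg, Units.val_one, zpow_neg_one]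
    exact cov_shift h hv hx
  | one => simp
  | mul y z _ _ iy iz =>
    rw [map_mul, map_mul, Units.val_mul, mul_inv_rev, zpow_mul, ← iy, conj_zpow, ← iz]
    simp only [mul_assoc]
  | inv y _ iy =>
    rw [map_inv, map_inv, inv_inv, Int.units_inv_eq_self]
    have hy2 : ((preParity y : ℤˣ) : ℤ) * ((preParity y : ℤˣ) : ℤ) = 1 := by
      rw [← Units.val_mul, Int.units_mul_self, Units.val_one]
    calc (covLift h hv y)⁻¹ * shift * covLift h hv y
        = (covLift h hv y)⁻¹ * (shift ^ ((preParity y : ℤˣ) : ℤ)) ^ ((preParity y : ℤˣ) : ℤ) *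
            covLift h hv y := by rw [← zpow_mul, hy2, zpow_one]
      _ = shift ^ ((preParity y : ℤˣ) : ℤ) := by
          nth_rewrite 1 [← iy]
          rw [conj_zpow]
          group

omit h hv in
/-- The witness: the dropped relator is not trivial and commutes with the even elements. -/
theorem exists_witness (h : Fi24.TabOK) (hv : VOK) :
    ∃ (H : Type) (_ : Group H) (f : Pre →* H), f zRel ≠ 1 ∧
      ∀ a, preParity a = 1 → Commute (f zRel) (f a) := by
  refine ⟨_, inferInstance, covLift h hv, ?_, fun a ha => ?_⟩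
  · intro e
    rw [covLift_zRel] at e
    have := congrArg Prod.snd (Equiv.ext_iff.1 e (⟨0, by norm_num⟩, 0))
    rw [shift_apply] at this
    exact absurd this (by decide)
  · rw [covLift_zRel]
    have := covLift_shift h hv a
    rw [ha, Units.val_one, zpow_one, mul_inv_eq_iff_eq_mul] at this
    exact this.symm

end CfsgLib.Fi24Mult30
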